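import Mathlib
import Cfsg.Agent.GeoPrime.USubfield

/-!
Pairs of residues as the elements of a field of order `p²`, and three by three matrices of pairs.
-/

set_option autoImplicit false

namespace CfsgLib.GeoPrime.Three

open Matrix

variable {p : ℕ}

/-- Pairs standing for `a + b √d`. -/
abbrev Cx (p : ℕ) := ZMod p × ZMod p

/-- Products of pairs. -/
def mulC (d : ZMod p) (x y : Cx p) : Cx p := (x.1 * y.1 + d * (x.2 * y.2), x.1 * y.2 + x.2 * y.1)

/-- Conjugation of pairs. -/
def conjC (x : Cx p) : Cx p := (x.1, -x.2)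

/-- Matrices of pairs. -/
abbrev M3 (p : ℕ) := Fin 3 → Fin 3 → Cx p

/-- The pair with the given number. -/
def ofCode (p : ℕ) (c : ℕ) : Cx p := ((c : ZMod p), ((c / p : ℕ) : ZMod p))

/-- The number of a pair. -/
def toCode {p : ℕ} [NeZero p] (x : Cx p) : ℕ := x.1.val + p * x.2.val

/-- The matrix with the given entries. -/
def ofList (p : ℕ) (L : List ℕ) : M3 p := fun i j => ofCode p (L.getD (3 * i.val + j.val) 0)

/-- Products of matrices. -/
def mulM (d : ZMod p) (A B : M3 p) : M3 p := fun i k =>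
  mulC d (A i 0) (B 0 k) + mulC d (A i 1) (B 1 k) + mulC d (A i 2) (B 2 k)

/-- The conjugate transpose. -/
def starM (A : M3 p) : M3 p := fun i j => conjC (A j i)

/-- The identity. -/
def oneM (p : ℕ) : M3 p := fun i j => if i = j then (1, 0) else 0

/-- The determinant. -/
def detM (d : ZMod p) (A : M3 p) : Cx p :=
  mulC d (A 0 0) (mulC d (A 1 1) (A 2 2)) - mulC d (A 0 0) (mulC d (A 1 2) (A 2 1))
    - mulC d (A 0 1) (mulC d (A 1 0) (A 2 2)) + mulC d (A 0 1) (mulC d (A 1 2) (A 2 0))
    + mulC d (A 0 2) (mulC d (A 1 0) (A 2 1)) - mulC d (A 0 2) (mulC d (A 1 1) (A 2 0))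

/-- The vector with the given number. -/
def decV (p : ℕ) (c : ℕ) : Fin 3 → Cx p := fun i => ofCode p (c / (p * p) ^ i.val % (p * p))

/-- The number of a vector. -/
def encV {p : ℕ} [NeZero p] (v : Fin 3 → Cx p) : ℕ :=
  toCode (v 0) + p * p * toCode (v 1) + p * p * (p * p) * toCode (v 2)

/-- Matrix times vector. -/
def mulV (d : ZMod p) (A : M3 p) (v : Fin 3 → Cx p) : Fin 3 → Cx p := fun i =>
  mulC d (A i 0) (v 0) + mulC d (A i 1) (v 1) + mulC d (A i 2) (v 2)

/-- The matrix maps the listed vectors into the set with the given bit mask. -/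
def keeps [NeZero p] (d : ZMod p) (L : List ℕ) (mask : ℕ) (A : M3 p) : Bool :=
  L.all fun c => mask.testBit (encV (mulV d A (decV p c)))

theorem toCode_ofCode [NeZero p] {c : ℕ} (hc : c < p * p) : toCode (ofCode p c) = c := by
  rw [toCode, ofCode, ZMod.val_natCast, ZMod.val_natCast,
    Nat.mod_eq_of_lt (Nat.div_lt_of_lt_mul hc : c / p < p), Nat.mod_add_div]

theorem ofCode_toCode [NeZero p] (x : Cx p) : ofCode p (toCode x) = x := by
  have h := ZMod.val_lt x.1
  refine Prod.ext ?_ ?_
  · simp [ofCode, toCode]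
  · show (((x.1.val + p * x.2.val) / p : ℕ) : ZMod p) = x.2
    rw [Nat.add_mul_div_left _ _ (NeZero.pos p), Nat.div_eq_of_lt h, zero_add, ZMod.natCast_zmod_val]

theorem toCode_lt [NeZero p] (x : Cx p) : toCode x < p * p := by
  rw [toCode]
  have h1 := ZMod.val_lt x.1
  have h2 := ZMod.val_lt x.2
  nlinarith

theorem decV_encV [NeZero p] (v : Fin 3 → Cx p) : decV p (encV v) = v := by
  funext i
  have h0 := toCode_lt (v 0)
  have h1 := toCode_lt (v 1)
  have h2 := toCode_lt (v 2)
  have hp : 0 < p * p := Nat.mul_pos (NeZero.pos p) (NeZero.pos p)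
  rw [← ofCode_toCode (v i)]
  simp only [decV]
  congr 1
  fin_cases i
  · simp only [encV, Fin.isValue, pow_zero, Nat.div_one]
    rw [mul_assoc (p * p), Nat.add_assoc, ← mul_add, Nat.add_mul_mod_self_left, Nat.mod_eq_of_lt h0]
    rfl
  · simp only [encV, Fin.isValue, pow_one]
    rw [mul_assoc (p * p), Nat.add_assoc, ← mul_add, Nat.add_mul_div_left _ _ hp, Nat.div_eq_of_lt h0, zero_add,
      Nat.add_mul_mod_self_left, Nat.mod_eq_of_lt h1]
    rfl
  · simp only [encV, Fin.isValue]
    rw [pow_two, mul_assoc (p * p), Nat.add_assoc, ← mul_add, ← Nat.div_div_eq_div_mul,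
      Nat.add_mul_div_left _ _ hp, Nat.div_eq_of_lt h0, zero_add, Nat.add_mul_div_left _ _ hp,
      Nat.div_eq_of_lt h1, zero_add, Nat.mod_eq_of_lt h2]
    rfl

/-- The mask of a list tests membership. -/
theorem mem_of_testBit {L : List ℕ} {c : ℕ} (h : (L.foldr (fun c m => 2 ^ c ||| m) 0).testBit c = true) : c ∈ L := by
  induction L with
  | nil => simp at h
  | cons a L ih =>
    simp only [List.foldr_cons, Nat.testBit_or, Bool.or_eq_true] at h
    rcases h with h | h
    · rw [Nat.testBit_two_pow] at h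
      simp only [decide_eq_true_eq] at h
      exact h ▸ List.mem_cons_self
    · exact List.mem_cons_of_mem _ (ih h)

section Field

variable {F : Type*} [Field F] [CharP F p]

/-- The element attached to a pair. -/
def toF (s : F) (x : Cx p) : F := ZMod.castHom dvd_rfl F x.1 + ZMod.castHom dvd_rfl F x.2 * s

/-- The matrix attached to a matrix of pairs. -/
def matF (s : F) (A : M3 p) : Matrix (Fin 3) (Fin 3) F := Matrix.of fun i j => toF s (A i j)

/-- The vector attached to a vector of pairs. -/
def vecF (s : F) (v : Fin 3 → Cx p) : Fin 3 → F := fun i => toF s (v i)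

/-- What a root of `X² - d` satisfies. -/
structure Root (σ : F ≃+* F) (d : ZMod p) (s : F) : Prop where
  sq : s ^ 2 = ZMod.castHom dvd_rfl F d
  conj : σ s = -s
  ne_zero : s ≠ 0
  two : (2 : F) ≠ 0

variable {σ : F ≃+* F} {d : ZMod p} {s : F} (hs : Root σ d s)

theorem toF_add (s : F) (x y : Cx p) : toF s (x + y) = toF s x + toF s y := by
  simp only [toF, Prod.fst_add, Prod.snd_add, map_add]; ring

theorem toF_sub (s : F) (x y : Cx p) : toF s (x - y) = toF s x - toF s y := by
  simp only [toF, Prod.fst_sub, Prod.snd_sub, map_sub]; ring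

theorem toF_one (s : F) : toF (p := p) s (1, 0) = 1 := by simp [toF]

theorem toF_zero (s : F) : toF (p := p) s 0 = 0 := by simp [toF]

theorem cast_fixed (σ : F ≃+* F) (a : ZMod p) : σ (ZMod.castHom dvd_rfl F a) = ZMod.castHom dvd_rfl F a := by
  have h : ((σ : F →+* F).comp (ZMod.castHom dvd_rfl F)) = ZMod.castHom dvd_rfl F := Subsingleton.elim _ _
  exact RingHom.congr_fun h a

include hs in
theorem toF_mul (x y : Cx p) : toF s (mulC d x y) = toF s x * toF s y := by
  simp only [toF, mulC, map_add, map_mul]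
  linear_combination (-(ZMod.castHom dvd_rfl F x.2 * ZMod.castHom dvd_rfl F y.2)) * hs.sq

include hs in
theorem toF_conj (x : Cx p) : σ (toF s x) = toF s (conjC x) := by
  simp only [toF, conjC, map_add, map_mul, cast_fixed, hs.conj, map_neg]; ring

include hs in
theorem toF_injective [hp : Fact p.Prime] : Function.Injective (toF (p := p) s) := by
  intro x y h
  have h' := congrArg σ h
  rw [toF_conj hs, toF_conj hs] at h'
  simp only [toF, conjC, map_neg] at h h'
  have hinj : Function.Injective (ZMod.castHom (dvd_refl p) F) := RingHom.injective _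
  have e1 : ZMod.castHom (dvd_refl p) F x.1 = ZMod.castHom (dvd_refl p) F y.1 :=
    mul_left_cancel₀ hs.two (by linear_combination h + h')
  refine Prod.ext (hinj e1) (hinj (mul_right_cancel₀ hs.ne_zero ?_))
  linear_combination h - e1

include hs in
theorem matF_mul (A B : M3 p) : matF s (mulM d A B) = matF s A * matF s B := by
  ext i k
  simp [matF, mulM, Matrix.mul_apply, Fin.sum_univ_three, toF_add, toF_mul hs]

include hs in
theorem matF_mulV (A : M3 p) (v : Fin 3 → Cx p) : vecF s (mulV d A v) = matF s A *ᵥ vecF s v := by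
  funext i
  simp [matF, vecF, mulV, Matrix.mulVec, dotProduct, Fin.sum_univ_three, toF_add, toF_mul hs]

theorem matF_one (s : F) : matF s (oneM p) = 1 := by
  ext i j
  rcases eq_or_ne i j with rfl | h
  · simp [matF, oneM, toF]
  · simp [matF, oneM, toF, h]

theorem matF_congr (s : F) {A B : M3 p} (h : ∀ i j, A i j = B i j) : matF s A = matF s B := by
  ext i j; simp [matF, h]

include hs in
theorem det_matF (A : M3 p) : (matF s A).det = toF s (detM d A) := by
  simp only [Matrix.det_fin_three, detM, toF_add, toF_sub, toF_mul hs, matF, Matrix.of_apply]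
  ring

include hs in
theorem matF_injective [Fact p.Prime] {A B : M3 p} (h : matF s A = matF s B) : ∀ i j, A i j = B i j :=
  fun i j => toF_injective hs (congrFun (congrFun h i) j)

variable [Fintype F]

include hs in
/-- An element of the special unitary group from a matrix of pairs. -/
theorem exists_su {q : ℕ} (D : UData 3 F q σ) {A : M3 p} (hu : ∀ i j, mulM d (starM A) A i j = oneM p i j)
    (hdet : detM d A = (1, 0)) : ∃ g ∈ specialUnitary 3 F q, (g : Matrix (Fin 3) (Fin 3) F) = matF s A := by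
  have hd : (matF s A).det = 1 := by rw [det_matF hs, hdet, toF_one]
  refine ⟨GeneralLinearGroup.mkOfDetNeZero (matF s A) (by rw [hd]; exact one_ne_zero),
    ⟨mem_GU.mpr fun u v => ?_, mem_specialLinear.mpr hd⟩, rfl⟩
  show Cfsg.hermForm 3 F q (matF s A *ᵥ u) (matF s A *ᵥ v) = _
  have h1 : matF s (starM A) * matF s A = 1 := by rw [← matF_mul hs, matF_congr s hu, matF_one]
  have h2 : (matF s A)ᵀ * conjMat σ (matF s A) = 1 := by
    refine Matrix.ext fun i j => σ.injective ?_
    have := congrFun (congrFun h1 i) j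
    simp only [Matrix.mul_apply, Matrix.map_apply, Matrix.transpose_apply, map_sum, map_mul, D.inv,
      matF, Matrix.of_apply, starM, ← toF_conj hs] at this ⊢
    rw [this]
    rcases eq_or_ne i j with rfl | hne
    · simp
    · simp [hne]
  rw [form_pullback D, h2, one_mulVec, herm_dot D]

/-- The vectors with the listed numbers. -/
def vecSet (s : F) (p : ℕ) [CharP F p] (L : List ℕ) : Set (Fin 3 → F) := {w | ∃ c ∈ L, vecF s (decV p c) = w}

/-- Elements mapping a set of vectors into itself. -/
theorem exists_stabilizer (X : Set (Fin 3 → F)) :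
    ∃ S : Subgroup (GL (Fin 3) F), ∀ g, g ∈ S ↔ ∀ w ∈ X, (g : Matrix (Fin 3) (Fin 3) F) *ᵥ w ∈ X := by
  refine ⟨Cfsg.stabilizing (Cfsg.glToMat (Fin 3) F) X, fun g => ⟨fun h w hw => (h w).mp hw, fun h w => ?_⟩⟩
  refine ⟨h w, fun hw => ?_⟩
  obtain ⟨⟨w', hw'⟩, hww⟩ := (Finite.injective_iff_surjective
    (f := fun w : X => (⟨(g : Matrix (Fin 3) (Fin 3) F) *ᵥ w.1, h w.1 w.2⟩ : X))).mp
    (fun a b e => Subtype.ext (gl_inj g (congrArg Subtype.val e))) ⟨_, hw⟩
  exact gl_inj g (congrArg Subtype.val hww) ▸ hw'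

include hs in
theorem keeps_iff [Fact p.Prime] {L : List ℕ} {mask : ℕ} (hlt : L.all (fun c => decide (c < (p * p) ^ 3)) = true)
    (hsub : L.all (fun c => mask.testBit c) = true)
    (hsup : ∀ c, mask.testBit c = true → c ∈ L) (A : M3 p) :
    (∀ w ∈ vecSet s p L, matF s A *ᵥ w ∈ vecSet s p L) ↔ keeps d L mask A = true := by
  simp only [keeps, List.all_eq_true, decide_eq_true_eq] at hlt hsub ⊢
  constructor
  · intro h c hc
    obtain ⟨c', hc', he⟩ := h _ ⟨c, hc, rfl⟩
    rw [← matF_mulV hs] at he
    have e : decV p c' = mulV d A (decV p c) := funext fun i => toF_injective hs (congrFun he i)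
    rw [← e]
    have hcode : encV (decV p c') = c' := by
      have hb := hlt c' hc'
      have hpp : 0 < p * p := Nat.mul_pos (NeZero.pos p) (NeZero.pos p)
      simp only [encV, decV, Fin.val_zero, Fin.val_one, Fin.val_two, pow_zero, pow_one, Nat.div_one]
      rw [toCode_ofCode (Nat.mod_lt _ hpp), toCode_ofCode (Nat.mod_lt _ hpp), toCode_ofCode (Nat.mod_lt _ hpp),
        pow_two, Nat.mod_eq_of_lt (Nat.div_lt_of_lt_mul (by rw [pow_succ, pow_two] at hb; exact hb) :
          c' / (p * p * (p * p)) < p * p)]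
      rw [← Nat.div_div_eq_div_mul c' (p * p) (p * p)]
      have h1 := Nat.div_add_mod c' (p * p)
      have h2 := Nat.div_add_mod (c' / (p * p)) (p * p)
      calc c' % (p * p) + p * p * (c' / (p * p) % (p * p)) + p * p * (p * p) * (c' / (p * p) / (p * p))
          = p * p * (p * p * (c' / (p * p) / (p * p)) + c' / (p * p) % (p * p)) + c' % (p * p) := by ring
        _ = c' := by rw [h2, h1]
    rw [hcode]
    exact hsub c' hc'
  · rintro h _ ⟨c, hc, rfl⟩
    exact ⟨encV (mulV d A (decV p c)), hsup _ (h c hc), by rw [decV_encV, matF_mulV hs]⟩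

/-- A root exists. -/
theorem exists_root [Fact p.Prime] {q : ℕ} (D : UData 3 F q σ) (hqp : q = p) (hp2 : (2 : ZMod p) ≠ 0) {d : ZMod p}
    (hd : ∀ e : ZMod p, (∀ r, r ^ 2 ≠ e) → ∃ k, k ^ 2 * e = d ∧ k ≠ 0) : ∃ s : F, Root σ d s := by
  have h2 : (2 : F) ≠ 0 := fun h => hp2 ((ZMod.castHom (dvd_refl p) F).injective (by
    rw [map_ofNat, map_zero]; exact h))
  obtain ⟨c, hc0, hc⟩ := exists_trace_zero D.ne_refl D.inv
  have hfix : (c ^ 2) ^ p = c ^ 2 := by
    rw [← hqp, ← D.conj, map_pow, hc, neg_sq]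
  obtain ⟨e, he⟩ : ∃ e : ZMod p, ZMod.castHom dvd_rfl F e = c ^ 2 := by
    classical
    by_contra hne
    push Not at hne
    have hsub := Polynomial.card_le_degree_of_subset_roots (p := (Polynomial.X ^ p - Polynomial.X : Polynomial F))
      (Z := insert (c ^ 2) (Finset.univ.image (ZMod.castHom (dvd_refl p) F))) (fun y hy => by
        rw [Polynomial.mem_roots (FiniteField.X_pow_card_sub_X_ne_zero F (Fact.out : p.Prime).one_lt)]
        rcases Finset.mem_insert.mp hy with rfl | hy
        · simp [hfix]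
        · obtain ⟨r, -, rfl⟩ := Finset.mem_image.mp hy
          rw [Polynomial.IsRoot, Polynomial.eval_sub, Polynomial.eval_pow, Polynomial.eval_X, ← map_pow,
            ZMod.pow_card, sub_self])
    rw [Finset.card_insert_of_notMem (by simpa using fun r => hne r),
      Finset.card_image_of_injective _ (ZMod.castHom (dvd_refl p) F).injective, Finset.card_univ, ZMod.card,
      FiniteField.X_pow_card_sub_X_natDegree_eq F (Fact.out : p.Prime).one_lt] at hsub
    omega
  obtain ⟨k, hk, hk0⟩ := hd e fun r hr => by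
    rw [← hr, map_pow] at he
    rcases sq_eq_sq_iff_eq_or_eq_neg.mp he with h | h
    · rw [← h, cast_fixed] at hc
      exact hc0 (h ▸ (mul_eq_zero.mp (by linear_combination hc : (2 : F) * _ = 0)).resolve_left h2)
    · have h' : c = -ZMod.castHom dvd_rfl F r := by rw [h, neg_neg]
      rw [h', map_neg, cast_fixed] at hc
      exact hc0 (by rw [h']; exact (mul_eq_zero.mp (by linear_combination hc : (2 : F) * _ = 0)).resolve_left h2)
  refine ⟨ZMod.castHom dvd_rfl F k * c, ?_, ?_, mul_ne_zero ((map_ne_zero _).mpr hk0) hc0, h2⟩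
  · rw [mul_pow, ← he, ← map_pow, ← map_mul, hk]
  · rw [map_mul, cast_fixed, hc, mul_neg]

end Field

end CfsgLib.GeoPrime.Three
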