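import Mathlib
import Cfsg.Agent.GeoPrime.Three.Cx

/-!
Data for a subgroup of order 168 of SU(3,3).
-/

set_option autoImplicit false

namespace CfsgLib.GeoPrime.Three.DataThree

/-- An orbit of 42 vectors. -/
def orb : List ℕ :=
  [1, 2, 27, 41, 43, 54, 77, 79, 81, 112, 116, 127, 128, 139, 143, 145,
    146, 162, 193, 197, 208, 209, 220, 224, 226, 227, 352, 353, 379, 380, 410, 412,
    441, 477, 572, 574, 603, 639, 676, 677, 703, 704]

/-- Its bit mask. -/
def msk : ℕ := 0x180000030000000008000000008000000500000000000000000000000200000000200000014000000180000030000000000000000000000000000000d100300220000000400068801801100000002a00000400a0008000006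

/-- The powers of an element of order 7. -/
def pw (a : Fin 7) : M3 3 :=
  ofList 3 ((
  [[1, 0, 0, 0, 1, 0, 0, 0, 1],
    [4, 0, 8, 3, 5, 3, 1, 8, 1],
    [5, 6, 2, 4, 1, 6, 0, 7, 4],
    [1, 8, 2, 6, 7, 3, 8, 0, 8],
    [1, 3, 5, 5, 4, 0, 2, 6, 5],
    [8, 7, 0, 3, 1, 4, 2, 3, 7],
    [7, 6, 1, 0, 8, 5, 5, 6, 1]] : List (List ℕ)).getD a.val [])

/-- An element of order three normalising it. -/
def y0 : M3 3 := ofList 3 [2, 8, 2, 6, 5, 6, 4, 0, 8]

/-- An element not normalising it. -/
def z0 : M3 3 := ofList 3 [2, 0, 0, 0, 0, 6, 0, 3, 0]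

/-- The inverse of the cyclic basis of the first vector. -/
def ci : M3 3 := ofList 3 [1, 6, 7, 0, 0, 1, 0, 5, 4]

/-- A transvection not preserving the orbit. -/
def t0 : M3 3 := ofList 3 [1, 0, 0, 0, 4, 4, 0, 5, 7]

theorem pw_zero : ∀ i j, pw 0 i j = oneM 3 i j := by decide +kernel
theorem pw_succ : ∀ (a : Fin 7) i j, mulM 2 (pw a) (pw 1) i j = pw (a + 1) i j := by decide +kernel
theorem x_unit : ∀ i j, mulM 2 (starM (pw 1)) (pw 1) i j = oneM 3 i j := by decide +kernel
theorem y_unit : ∀ i j, mulM 2 (starM y0) y0 i j = oneM 3 i j := by decide +kernel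
theorem z_unit : ∀ i j, mulM 2 (starM z0) z0 i j = oneM 3 i j := by decide +kernel
theorem x_det : detM 2 (pw 1) = (1, 0) := by decide +kernel
theorem y_det : detM 2 y0 = (1, 0) := by decide +kernel
theorem z_det : detM 2 z0 = (1, 0) := by decide +kernel
theorem x_ne : ∃ i j, pw 1 i j ≠ oneM 3 i j := by decide +kernel
theorem y_conj : ∀ i j, mulM 2 y0 (pw 1) i j = mulM 2 (pw 2) y0 i j := by decide +kernel
theorem z_not : ∀ a, ∃ i j, mulM 2 z0 (pw 1) i j ≠ mulM 2 (pw a) z0 i j := by decide +kernel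
theorem ci_cyclic : ∀ i j, mulM 2 (fun r c => pw (c.castLE (by decide)) r 0) ci i j = oneM 3 i j := by decide +kernel
theorem pw_trace : ∀ a : Fin 7, pw a 0 0 + pw a 1 1 + pw a 2 2 = pw 1 0 0 + pw 1 1 1 + pw 1 2 2 →
    a = 1 ∨ a = 2 ∨ a = 4 := by decide +kernel
theorem x_keeps : keeps 2 orb msk (pw 1) = true := by decide +kernel
theorem y_keeps : keeps 2 orb msk y0 = true := by decide +kernel
theorem z_keeps : keeps 2 orb msk z0 = true := by decide +kernel
theorem orb_lt : orb.all (fun c => decide (c < (3 * 3) ^ 3)) = true := by decide +kernel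
theorem orb_sub : orb.all (fun c => Nat.testBit msk c) = true := by decide +kernel
theorem msk_eq : msk = orb.foldr (fun c m => 2 ^ c ||| m) 0 := by decide +kernel
theorem t_unit : ∀ i j, mulM 2 (starM t0) t0 i j = oneM 3 i j := by decide +kernel
theorem t_det : detM 2 t0 = (1, 0) := by decide +kernel
theorem t_not_keeps : keeps 2 orb msk t0 = false := by decide +kernel

end CfsgLib.GeoPrime.Three.DataThree
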