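import Mathlib
import Cfsg.Agent.GeoPrime.Unitary

/-!
Dimension three: properness, overgroups, cyclic Sylow subgroups, Singer elements.
-/

set_option autoImplicit false

namespace CfsgLib.GeoPrime.Three

open Matrix

variable {F : Type*} [Field F] [Fintype F] {q : ℕ} {σ : F ≃+* F}

theorem su3_not_le_decompositionStabilizer (D : UData 3 F q σ) (hq : 3 ≤ q)
    (b : Module.Basis (Fin 3) F (Fin 3 → F))
    (hb : ∀ i j, i ≠ j → Cfsg.hermForm 3 F q (b i) (b j) = 0)
    (hd : ∀ i, Cfsg.hermForm 3 F q (b i) (b i) ≠ 0) :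
    ¬ specialUnitary 3 F q ≤ Cfsg.Geo.decompositionStabilizer (basisLines b) := by
  classical
  intro hle
  have hf := D.unitary (n := 3)
  have hs := isSesq_of_unitary hf
  obtain ⟨c, hc0, hc⟩ := exists_trace_zero D.ne_refl D.inv
  obtain ⟨p, k, τ, hp, hC, hk, hqp, -⟩ := exists_conj D.card
  haveI := Fact.mk hp
  -- a fixed element other than `0` and `-1`
  obtain ⟨x, hx0, hx1, hxf⟩ : ∃ x : F, x ≠ 0 ∧ x ≠ -1 ∧ σ x = x := by
    rcases eq_or_ne (1 : F) (-1) with h1 | h1
    · -- characteristic two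
      obtain ⟨y, hy⟩ : ∃ y : Fˣ, y ^ (q + 1) ≠ 1 := by
        by_contra h
        push Not at h
        have hd := (FiniteField.forall_pow_eq_one_iff F (q + 1)).mp h
        rw [D.card] at hd
        have hd' := Nat.le_of_dvd (by omega) hd
        have hq' := Nat.sub_add_cancel (Nat.one_le_pow 2 q (by omega))
        nlinarith
      refine ⟨(y : F) ^ (q + 1), pow_ne_zero _ y.ne_zero, fun h => hy (Units.ext ?_), ?_⟩
      · rw [Units.val_pow_eq_pow_val, Units.val_one, h]; exact h1.symm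
      · rw [D.conj, ← pow_mul, add_mul, one_mul, pow_add, pow_add, pow_one, ← sq, ← D.card, FiniteField.pow_card,
          mul_comm]
    · exact ⟨1, one_ne_zero, h1, map_one σ⟩
  have hnorm : ∀ (i : Fin 3) (e : F), e ≠ 0 → σ e = e →
      ∃ a : F, a ≠ 0 ∧ a * σ a * Cfsg.hermForm 3 F q (b i) (b i) = e := by
    intro i e he hef
    obtain ⟨a, ha0, ha⟩ := exists_norm_eq D.ne_refl D.inv (div_ne_zero he (hd i)) (by
      rw [map_div₀, hef, ← hf.herm])
    exact ⟨a, ha0, by rw [ha, div_mul_cancel₀ e (hd i)]⟩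
  obtain ⟨a0, ha0, hn0⟩ := hnorm 0 1 one_ne_zero (map_one σ)
  obtain ⟨a1, ha1, hn1⟩ := hnorm 1 x hx0 hxf
  obtain ⟨a2, ha2, hn2⟩ := hnorm 2 (-1 - x) (fun h => hx1 (by linear_combination -h))
    (by rw [map_sub, map_neg, map_one, hxf])
  set u := a0 • b 0 + a1 • b 1 + a2 • b 2 with hu
  have h01 : (0 : Fin 3) ≠ 1 := by decide
  have h02 : (0 : Fin 3) ≠ 2 := by decide
  have h12 : (1 : Fin 3) ≠ 2 := by decide
  have hu0 : Cfsg.hermForm 3 F q u u = 0 := by
    simp only [hu, hs.add_left, hs.add_right, hs.smul_left, hs.smul_right, hb 0 1 h01, hb 1 0 h01.symm,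
      hb 0 2 h02, hb 2 0 h02.symm, hb 1 2 h12, hb 2 1 h12.symm, mul_zero, add_zero, zero_add]
    linear_combination hn0 + hn1 + hn2
  obtain ⟨t, ht, htx⟩ := D.transvection hu0 hc
  obtain ⟨π, hπ⟩ := mem_decompositionStabilizer.mp (hle ht)
  have hcoef : Cfsg.hermForm 3 F q (b 0) u ≠ 0 := by
    simp only [hu, hs.add_right, hs.smul_right, hb 0 1 h01, hb 0 2 h02, mul_zero, add_zero]
    exact mul_ne_zero ((map_ne_zero σ).mpr ha0) (hd 0)
  have hmem : b 0 + (c * Cfsg.hermForm 3 F q (b 0) u) • u ∈ basisLines b (π 0) := by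
    rw [← hπ 0, ← htx]
    exact ⟨b 0, Submodule.mem_span_singleton_self _, by simp⟩
  obtain ⟨e, he⟩ := Submodule.mem_span_singleton.mp hmem
  have e1 := congrArg (fun v => b.repr v 1) he
  have e2 := congrArg (fun v => b.repr v 2) he
  simp [hu, Finsupp.single_apply] at e1 e2
  rw [← hu] at e1 e2
  by_cases h : π 0 = 1
  · rw [h] at e2
    simp [hc0, hcoef, ha2] at e2
  · simp [h, hc0, hcoef, ha1] at e1

theorem su3_not_le_normalizer {p : ℕ} [Fact p.Prime] [CharP F p] (D : UData 3 F q σ) (hp : 11 ≤ p)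
    {P : Subgroup (GL (Fin 3) F)}
    (hP : Cfsg.Geo.ActsAbsolutelyIrreducibly (Cfsg.Geo.matrixSet P))
    (hS : P ≤ Cfsg.Geo.specialLinear (Fin 3) F) (hcard : Nat.card P = 27)
    (hcentre : Nat.card (Subgroup.center P) = 3) :
    ¬ specialUnitary 3 F q ≤ Cfsg.Geo.subgroupNormalizer P := by
  classical
  intro hle
  have hf := D.unitary (n := 3)
  obtain ⟨c, hc0, hc⟩ := exists_trace_zero D.ne_refl D.inv
  obtain ⟨a, -, ha⟩ := exists_norm_neg_one D.ne_refl D.inv
  set u : Fin 3 → F := Pi.single 0 1 + a • Pi.single 1 1 with hu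
  have h01 : (0 : Fin 3) ≠ 1 := by decide
  have hu0 : u ≠ 0 := fun h => by simpa [hu, h01] using congrFun h 0
  obtain ⟨t, ht, htx⟩ := D.transvection (herm_pair_zero D.conj h01 ha) hc
  set φ := (isSesq_of_unitary hf).rightFun u
  have htm : (t : Matrix (Fin 3) (Fin 3) F) = 1 + c • vecMulVec u (σ ∘ u) := by
    refine Matrix.ext_iff_mulVec.mpr fun x => ?_
    have hdot : (σ ∘ u) ⬝ᵥ x = Cfsg.hermForm 3 F q x u := by simp [dotProduct, hermForm_eq D.conj, mul_comm]
    rw [htx, add_mulVec, one_mulVec, smul_mulVec, vecMulVec_mulVec, op_smul_eq_smul, hdot, smul_smul]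
  haveI : ExpChar F p := ExpChar.prime Fact.out
  have htp : t ^ p = 1 := by
    have hsq : (c • vecMulVec u (σ ∘ u)) * (c • vecMulVec u (σ ∘ u)) = 0 := by
      rw [smul_mul_smul_comm, vecMulVec_mul_vecMulVec]
      have : (σ ∘ u) ⬝ᵥ u = Cfsg.hermForm 3 F q u u := by simp [dotProduct, hermForm_eq D.conj, mul_comm]
      rw [this, herm_pair_zero D.conj h01 ha, zero_smul, vecMulVec_zero, smul_zero]
    refine Units.ext ?_
    rw [Units.val_pow_eq_pow_val, htm, add_pow_char_of_commute p (Commute.one_left _), one_pow,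
      ← Nat.sub_add_cancel (show 2 ≤ p by omega), pow_add, pow_two, hsq, mul_zero, add_zero, Units.val_one]
  -- conjugation by `t` on `P` modulo its centre
  let γ : P ≃* P :=
    { toFun := fun x => ⟨t * x * t⁻¹, (Subgroup.mem_normalizer_iff.mp (hle ht) x).mp x.2⟩
      invFun := fun x => ⟨t⁻¹ * x * t, by
        have := (Subgroup.mem_normalizer_iff.mp (hle ((specialUnitary 3 F q).inv_mem ht)) x).mp x.2
        simpa using this⟩
      left_inv := fun x => Subtype.ext (by simp [mul_assoc])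
      right_inv := fun x => Subtype.ext (by simp [mul_assoc])
      map_mul' := fun x y => Subtype.ext (by simp [mul_assoc]) }
  have hcentral : ∀ x : P, x⁻¹ * γ x ∈ Subgroup.center P := by
    have hγp : γ ^ p = 1 := by
      have h : ∀ (m : ℕ) (x : P), ((γ ^ m) x : GL (Fin 3) F) = t ^ m * x * (t ^ m)⁻¹ := by
        intro m x
        induction m generalizing x with
        | zero => simp
        | succ m ih =>
          rw [pow_succ, MulAut.mul_apply, ih, pow_succ t, _root_.mul_inv_rev]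
          show t ^ m * (t * x * t⁻¹) * (t ^ m)⁻¹ = _
          group
      refine MulEquiv.ext fun x => Subtype.ext ?_
      rw [h, htp]; simp
    let γq : P ⧸ Subgroup.center P ≃* P ⧸ Subgroup.center P :=
      QuotientGroup.congr _ _ γ (by
        exact Subgroup.characteristic_iff_map_eq.mp inferInstance γ)
    have hq : Nat.card (P ⧸ Subgroup.center P) = 9 := by
      have := Subgroup.card_eq_card_quotient_mul_card_subgroup (Subgroup.center P)
      rw [hcard, hcentre] at this
      omega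
    intro x
    rw [← QuotientGroup.eq_one_iff, QuotientGroup.mk_mul, QuotientGroup.mk_inv, inv_mul_eq_one]
    have hpow : ∀ (m : ℕ) (y : P), (γq^[m]) (QuotientGroup.mk y) = QuotientGroup.mk ((γ ^ m) y) := by
      intro m y
      induction m with
      | zero => simp
      | succ m ih =>
        rw [Function.iterate_succ_apply', ih, pow_succ' γ m, MulAut.mul_apply]
        rfl
    have hfix : Function.IsFixedPt γq (QuotientGroup.mk x : P ⧸ Subgroup.center P) := by
      by_contra hne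
      have hper : Function.IsPeriodicPt γq p (QuotientGroup.mk x : P ⧸ Subgroup.center P) := by
        show (γq^[p]) _ = _
        rw [hpow, hγp]; simp
      have hmin : Function.minimalPeriod γq (QuotientGroup.mk x : P ⧸ Subgroup.center P) = p :=
        Function.minimalPeriod_eq_prime hper hne
      haveI := Fintype.ofFinite (P ⧸ Subgroup.center P)
      have := Function.minimalPeriod_le_card (f := γq) (x := (QuotientGroup.mk x : P ⧸ Subgroup.center P))
      rw [hmin, ← Nat.card_eq_fintype_card, hq] at this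
      omega
    exact hfix.symm
  have hcomm : ∀ x ∈ P, t * x = x * t := by
    intro x hx
    set y := x⁻¹ * (t * x * t⁻¹) with hy
    have hyc : (⟨x, hx⟩ : P)⁻¹ * γ ⟨x, hx⟩ ∈ Subgroup.center P := hcentral _
    obtain ⟨d, -, hd⟩ := scalar_matrix (mem_scalars_of_commute hP (g := y) fun z hz => by
      have := congrArg Subtype.val (Subgroup.mem_center_iff.mp hyc ⟨z, hz⟩)
      exact this.symm)
    -- a fixed vector
    obtain ⟨v, hv, hv0⟩ : ∃ v ∈ LinearMap.ker φ ⊓ LinearMap.ker (φ ∘ₗ Matrix.toLin' (x : Matrix (Fin 3) (Fin 3) F)),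
        v ≠ 0 := by
      rw [← Submodule.ne_bot_iff]
      intro hbot
      have h1 := LinearMap.finrank_range_add_finrank_ker (φ.prod (φ ∘ₗ Matrix.toLin' (x : Matrix (Fin 3) (Fin 3) F)))
      rw [LinearMap.ker_prod, hbot, finrank_bot, Module.finrank_fin_fun] at h1
      have h2 := Submodule.finrank_le (LinearMap.range (φ.prod (φ ∘ₗ Matrix.toLin' (x : Matrix (Fin 3) (Fin 3) F))))
      rw [Module.finrank_prod, Module.finrank_self] at h2
      omega
    have hfix : ∀ w, φ w = 0 → (t : Matrix (Fin 3) (Fin 3) F) *ᵥ w = w := fun w hw => by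
      rw [htx, show Cfsg.hermForm 3 F q w u = 0 from hw, mul_zero, zero_smul, add_zero]
    have hv1 : φ v = 0 := LinearMap.mem_ker.mp hv.1
    have hv2 : φ ((x : Matrix (Fin 3) (Fin 3) F) *ᵥ v) = 0 := by simpa using LinearMap.mem_ker.mp hv.2
    have hyv : (y : Matrix (Fin 3) (Fin 3) F) *ᵥ v = v := by
      simp only [hy, Units.val_mul, ← mulVec_mulVec]
      have hti : ((t⁻¹ : GL (Fin 3) F) : Matrix (Fin 3) (Fin 3) F) *ᵥ v = v := by
        conv_lhs => rw [← hfix v hv1]
        exact gl_inv_mulVec t v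
      rw [hti, hfix _ hv2, gl_inv_mulVec]
    rw [hd, smul_mulVec, one_mulVec] at hyv
    have hd1 : d = 1 := smul_left_injective F hv0 (by simpa using hyv)
    have hy1 : y = 1 := Units.ext (by rw [hd, hd1, one_smul, Units.val_one])
    rw [hy, inv_mul_eq_one] at hy1
    exact (mul_inv_eq_iff_eq_mul.mp hy1.symm)
  obtain ⟨d, -, hd⟩ := scalar_matrix (mem_scalars_of_commute hP hcomm)
  obtain ⟨w, hw⟩ := (isSesq_of_unitary hf).left_ne u hu0
  have h := congrFun (congrFun (htm.symm.trans hd) 0) 1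
  simp [hu, vecMulVec_apply, h01, hc0] at h
  rw [h] at ha
  simp at ha

/-- A subgroup lying in a larger proper one is not maximal. -/
theorem no_overgroup {G : Type*} [Group G] {I H : Subgroup G} (hH : Cfsg.Geo.IsMaximalIn I H)
    {S : Subgroup G} {g : G} (hgI : ∀ x ∈ I, g⁻¹ * x * g ∈ I) (hHS : ∀ h ∈ H, g * h * g⁻¹ ∈ S) {z : G}
    (hzI : z ∈ I) (hzS : z ∈ S) (hzH : g⁻¹ * z * g ∉ H) {d : G} (hdI : d ∈ I) (hdS : d ∉ S) : False := by
  set M := S.comap (MulAut.conj g).toMonoidHom ⊓ I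
  have hmem : ∀ w, w ∈ M ↔ g * w * g⁻¹ ∈ S ∧ w ∈ I := fun w => Iff.rfl
  rcases hH.2 M (fun h hh => (hmem h).mpr ⟨hHS h hh, hH.1.le hh⟩) inf_le_right with hMe | hMe
  · exact hzH (hMe ▸ (hmem _).mpr ⟨by simpa [mul_assoc] using hzS, hgI z hzI⟩)
  · have h : g⁻¹ * d * g ∈ M := hMe ▸ hgI d hdI
    exact hdS (by simpa [mul_assoc] using ((hmem _).mp h).1)

theorem conj_mem {G : Type*} [Group G] {I : Subgroup G} {g : G} (hg : g ∈ I) : ∀ x ∈ I, g⁻¹ * x * g ∈ I :=
  fun _ hx => mul_mem (mul_mem (inv_mem hg) hx) hg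

theorem conj_mem_su {g : GL (Fin 3) F} (hg : g ∈ Cfsg.GU 3 F q) :
    ∀ x ∈ specialUnitary 3 F q, g⁻¹ * x * g ∈ specialUnitary 3 F q := fun x hx =>
  ⟨mul_mem (mul_mem ((Cfsg.GU 3 F q).inv_mem hg) hx.1) hg, mem_specialLinear.mpr (by
    rw [Units.val_mul, Units.val_mul, Matrix.det_mul, Matrix.det_mul, mem_specialLinear.mp hx.2, mul_one,
      ← Matrix.det_mul, ← Units.val_mul, inv_mul_cancel, Units.val_one, Matrix.det_one])⟩

/-- Groups of prime exponent whose square does not divide the order. -/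
theorem pgroup_eq_zpowers {Γ : Type*} [Group Γ] [Finite Γ] {r : ℕ} [Fact r.Prime]
    (hr : ¬ r ^ 2 ∣ Nat.card Γ) {G : Subgroup Γ} {x : G} (hx : orderOf x = r) {T : Subgroup G}
    (hT : IsPGroup r T) (hxT : x ∈ T) : T = Subgroup.zpowers x := by
  refine (Subgroup.eq_of_le_of_card_ge (Subgroup.zpowers_le.mpr hxT) ?_).symm
  obtain ⟨k, hk⟩ := IsPGroup.iff_card.mp hT
  rw [Nat.card_zpowers, hx, hk]
  by_contra hlt
  have h2 : 2 ≤ k := by
    by_contra h
    apply hlt
    interval_cases k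
    · simpa using (Fact.out : r.Prime).one_le
    · simp
  refine hr ((pow_dvd_pow r h2).trans ?_)
  rw [← hk]
  exact (Subgroup.card_subgroup_dvd_card T).trans (Subgroup.card_subgroup_dvd_card G)

theorem mem_zpowers_of_commute {Γ : Type*} [Group Γ] [Finite Γ] {r : ℕ} [Fact r.Prime]
    (hr : ¬ r ^ 2 ∣ Nat.card Γ) {x y : Γ} (hx : orderOf x = r) (hy : y ^ r = 1) (hxy : x * y = y * x) :
    y ∈ Subgroup.zpowers x := by
  set G := Subgroup.closure ({x, y} : Set Γ)
  have hxG : x ∈ G := Subgroup.subset_closure (Set.mem_insert x _)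
  have hyG : y ∈ G := Subgroup.subset_closure (Set.mem_insert_of_mem _ rfl)
  have hcomm : ∀ a ∈ G, ∀ b ∈ G, a * b = b * a := by
    have hle : G ≤ Subgroup.centralizer ({x, y} : Set Γ) := by
      rw [Subgroup.closure_le]
      rintro a (rfl | rfl) b (rfl | rfl)
      · rfl
      · exact hxy.symm
      · exact hxy
      · rfl
    intro a ha b hb
    have hb' : G ≤ Subgroup.centralizer {a} := by
      rw [Subgroup.closure_le]
      intro c hc
      rw [SetLike.mem_coe, Subgroup.mem_centralizer_singleton_iff]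
      exact hle ha c hc
    exact (Subgroup.mem_centralizer_singleton_iff.mp (hb' hb)).symm
  have hler : ∀ a ∈ G, a ^ r = 1 := by
    intro a ha
    induction ha using Subgroup.closure_induction with
    | mem z hz =>
      rcases hz with rfl | rfl
      · rw [← hx, pow_orderOf_eq_one]
      · exact hy
    | one => exact one_pow _
    | mul a b ha hb iha ihb => rw [(show Commute a b from hcomm a ha b hb).mul_pow, iha, ihb, one_mul]
    | inv a _ ih => rw [inv_pow, ih, inv_one]
  have hT : IsPGroup r (⊤ : Subgroup G) := fun a => ⟨1, Subtype.ext (Subtype.ext (by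
    simpa using hler _ (a : G).2))⟩
  have h := pgroup_eq_zpowers hr (x := ⟨x, hxG⟩) (by rw [Subgroup.orderOf_mk, hx]) hT (Subgroup.mem_top _)
  have : (⟨y, hyG⟩ : G) ∈ Subgroup.zpowers (⟨x, hxG⟩ : G) := h ▸ Subgroup.mem_top _
  obtain ⟨m, hm⟩ := Subgroup.mem_zpowers_iff.mp this
  exact Subgroup.mem_zpowers_iff.mpr ⟨m, by simpa using congrArg Subtype.val hm⟩

theorem exists_conj_zpowers {Γ : Type*} [Group Γ] [Finite Γ] {r : ℕ} [Fact r.Prime]
    (hr : ¬ r ^ 2 ∣ Nat.card Γ) {G : Subgroup Γ} {x y : Γ} (hxG : x ∈ G) (hyG : y ∈ G)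
    (hx : orderOf x = r) (hy : orderOf y = r) :
    ∃ g ∈ G, ∀ z, z ∈ Subgroup.zpowers x ↔ g * z * g⁻¹ ∈ Subgroup.zpowers y := by
  have key : ∀ (x : G), orderOf x = r → ∃ S : Sylow r G, (S : Subgroup G) = Subgroup.zpowers x := by
    intro x hx
    have hp : IsPGroup r (Subgroup.zpowers x) := IsPGroup.of_card (n := 1) (by rw [Nat.card_zpowers, hx, pow_one])
    obtain ⟨S, hS⟩ := hp.exists_le_sylow
    exact ⟨S, pgroup_eq_zpowers hr hx S.2 (hS (Subgroup.mem_zpowers x))⟩
  obtain ⟨S, hS⟩ := key ⟨x, hxG⟩ (by rw [Subgroup.orderOf_mk, hx])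
  obtain ⟨T, hT⟩ := key ⟨y, hyG⟩ (by rw [Subgroup.orderOf_mk, hy])
  obtain ⟨g, hg⟩ := MulAction.exists_smul_eq G S T
  have hmap : (Subgroup.zpowers (⟨x, hxG⟩ : G)).map (MulAut.conj g).toMonoidHom = Subgroup.zpowers ⟨y, hyG⟩ := by
    rw [← hS, ← hT, ← hg]
    rfl
  rw [MonoidHom.map_zpowers] at hmap
  have hsub := congrArg (fun L : Subgroup G => L.map G.subtype) hmap
  simp only [MonoidHom.map_zpowers] at hsub
  refine ⟨g, g.2, fun z => ?_⟩
  change Subgroup.zpowers ((g : Γ) * x * (g : Γ)⁻¹) = Subgroup.zpowers y at hsub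
  rw [← hsub, Subgroup.mem_zpowers_iff, Subgroup.mem_zpowers_iff]
  simp only [conj_zpow, mul_left_inj, mul_right_inj]

/-- An element of a cubic field inside the special unitary group. -/
theorem singer_facts (D : UData 3 F q σ) {K : Subalgebra F (Matrix (Fin 3) (Fin 3) F)}
    (hK : Cfsg.Geo.IsFieldSubalgebra 3 K) (hadj : Cfsg.Geo.IsAdjointClosedFor (Cfsg.hermForm 3 F q) K)
    {x : GL (Fin 3) F} (hxG : x ∈ specialUnitary 3 F q) (hxK : (x : Matrix (Fin 3) (Fin 3) F) ∈ K) :
    (∃ i < 3, x ^ ((q ^ 2) ^ i + q) = 1 ∧ x ^ ((q ^ 2) ^ 3 - 1) = 1) ∧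
    ∀ m : ℕ, x ^ (m * q ^ 2) = x ^ m → x ^ m ∈ Cfsg.Geo.scalars (Fin 3) F := by
  classical
  obtain ⟨p, k, τ, hp, hC, hk, hqp, -⟩ := exists_conj D.card
  haveI := Fact.mk hp
  haveI := hC
  have hs := isSesq_of_unitary (D.unitary (n := 3))
  letI : CommRing K := { (inferInstance : Ring K) with mul_comm := fun a b => Subtype.ext (hK.comm a a.2 b b.2) }
  haveI : Nontrivial K := ⟨0, 1, fun h => by
    have := congrArg (fun k : K => (k : Matrix (Fin 3) (Fin 3) F) 0 0) h
    simp at this⟩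
  haveI : Fintype K := Fintype.ofFinite K
  haveI : NoZeroDivisors K := ⟨fun {a b} hab => or_iff_not_imp_left.mpr fun ha => by
    obtain ⟨y, hy, he⟩ := hK.inv a a.2 fun h => ha (Subtype.ext h)
    exact ((IsUnit.of_mul_eq_one (⟨y, hy⟩ : K) (Subtype.ext he)).mul_right_eq_zero).mp hab⟩
  haveI : IsDomain K := NoZeroDivisors.to_isDomain K
  letI : Field K := Fintype.fieldOfDomain K
  haveI : CharP K p := charP_of_injective_algebraMap (algebraMap F K).injective p
  haveI : ExpChar K p := ExpChar.prime hp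
  have hcardK : Fintype.card K = (q ^ 2) ^ 3 := by
    rw [Module.card_eq_pow_finrank (K := F) (V := K), hK.finrank_eq, D.card]
  choose A hA using hadj
  let θ : K → K := fun k => ⟨A k k.2, (hA k k.2).1⟩
  have hθ : ∀ (k : K) (m : Matrix (Fin 3) (Fin 3) F),
      (∀ u v, Cfsg.hermForm 3 F q ((k : Matrix (Fin 3) (Fin 3) F) *ᵥ u) v =
        Cfsg.hermForm 3 F q u (m *ᵥ v)) → (θ k : Matrix (Fin 3) (Fin 3) F) = m := by
    intro k m hm
    refine Matrix.ext_iff_mulVec.mpr fun v => ?_
    by_contra hne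
    obtain ⟨u, hu⟩ := hs.right_ne _ (sub_ne_zero.mpr hne)
    apply hu
    have h1 : Cfsg.hermForm 3 F q u (A k k.2 *ᵥ v) = Cfsg.hermForm 3 F q u (m *ᵥ v) :=
      ((hA k k.2).2 u v).symm.trans (hm u v)
    have h2 : Cfsg.hermForm 3 F q u (A k k.2 *ᵥ v - m *ᵥ v + m *ᵥ v) =
        Cfsg.hermForm 3 F q u (A k k.2 *ᵥ v - m *ᵥ v) + Cfsg.hermForm 3 F q u (m *ᵥ v) := hs.add_right _ _ _
    rw [sub_add_cancel, h1] at h2
    exact right_eq_add.mp h2
  have hθspec : ∀ (k : K) u v, Cfsg.hermForm 3 F q ((k : Matrix (Fin 3) (Fin 3) F) *ᵥ u) v =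
      Cfsg.hermForm 3 F q u ((θ k : Matrix (Fin 3) (Fin 3) F) *ᵥ v) := fun k => (hA k k.2).2
  have hθmul : ∀ a b : K, θ (a * b) = θ a * θ b := fun a b => Subtype.ext (by
    rw [hθ (a * b) ((θ b : Matrix (Fin 3) (Fin 3) F) * θ a) fun u v => by
      rw [MulMemClass.coe_mul, ← mulVec_mulVec, hθspec, hθspec, mulVec_mulVec]]
    exact hK.comm _ (θ b).2 _ (θ a).2)
  have hθadd : ∀ a b : K, θ (a + b) = θ a + θ b := fun a b => Subtype.ext (by
    rw [hθ (a + b) ((θ a : Matrix (Fin 3) (Fin 3) F) + θ b) fun u v => by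
      rw [AddMemClass.coe_add, add_mulVec, add_mulVec, hs.add_left, hθspec, hθspec, hs.add_right]]
    rfl)
  have hθalg : ∀ c : F, θ (algebraMap F K c) = algebraMap F K (σ c) := fun c => Subtype.ext (by
    rw [hθ (algebraMap F K c) (σ c • 1) fun u v => by
      simp [Algebra.algebraMap_eq_smul_one, smul_mulVec, hs.smul_left, hs.smul_right, D.inv]]
    simp [Algebra.algebraMap_eq_smul_one])
  let ψ : K →ₐ[F] K :=
    { toFun := fun k => θ k ^ q
      map_one' := by
        have : θ 1 = 1 := by simpa using hθalg 1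
        rw [this, one_pow]
      map_mul' := fun a b => by rw [hθmul, mul_pow]
      map_zero' := by
        have : θ 0 = 0 := by simpa using hθalg 0
        rw [this, zero_pow (by rw [hqp]; exact pow_ne_zero _ hp.ne_zero)]
      map_add' := fun a b => by rw [hθadd, hqp, add_pow_expChar_pow]
      commutes' := fun c => by
        show θ _ ^ q = _
        rw [hθalg, ← map_pow, D.conj, ← pow_mul, ← sq, ← D.card, FiniteField.pow_card] }
  obtain ⟨i, hi⟩ := (FiniteField.bijective_frobeniusAlgHom_pow F K).2 ψ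
  have hpow : ∀ (j : ℕ) (k : K), (FiniteField.frobeniusAlgHom F K ^ j) k = k ^ (q ^ 2) ^ j := by
    intro j k
    induction j with
    | zero => simp
    | succ j ih =>
      rw [pow_succ', AlgHom.mul_apply, ih, FiniteField.coe_frobeniusAlgHom]
      show (k ^ (q ^ 2) ^ j) ^ Fintype.card F = _
      rw [D.card, ← pow_mul, ← pow_succ]
  set xk : K := ⟨_, hxK⟩ with hxk
  have hθx : θ xk * xk = 1 := by
    refine Subtype.ext ?_
    rw [MulMemClass.coe_mul, hθ xk ((x⁻¹ : GL (Fin 3) F) : Matrix (Fin 3) (Fin 3) F) fun u v => by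
      conv_lhs => rw [← gl_mulVec_inv x v]
      rw [mem_GU.mp hxG.1]]
    exact x.inv_mul
  have hcoe : ∀ m : ℕ, xk ^ m = 1 → x ^ m = 1 := fun m h => Units.ext (by
    have := congrArg Subtype.val h
    simpa [hxk] using this)
  refine ⟨⟨i, lt_of_lt_of_eq i.2 hK.finrank_eq, hcoe _ ?_, hcoe _ ?_⟩, fun m hm => ?_⟩
  · rw [pow_add, (hpow i xk).symm.trans (DFunLike.congr_fun hi xk)]
    show θ xk ^ q * xk ^ q = 1
    rw [← mul_pow, hθx, one_pow]
  · have hx0 : xk ≠ 0 := fun h => by rw [h, mul_zero] at hθx; exact zero_ne_one hθx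
    have := FiniteField.pow_card_sub_one_eq_one xk hx0
    rwa [hcardK] at this
  · set a : K := xk ^ m with ha
    have ha' : a ^ Fintype.card F = a := by
      rw [ha, ← pow_mul, D.card]
      refine Subtype.ext ?_
      have := congrArg Units.val hm
      simpa [hxk] using this
    obtain ⟨c, hc⟩ : ∃ c : F, algebraMap F K c = a := by
      by_contra hne
      push Not at hne
      have hsub := Polynomial.card_le_degree_of_subset_roots
        (p := (Polynomial.X ^ Fintype.card F - Polynomial.X : Polynomial K))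
        (Z := insert a (Finset.univ.image (algebraMap F K))) (fun y hy => by
          rw [Polynomial.mem_roots (FiniteField.X_pow_card_sub_X_ne_zero K Fintype.one_lt_card)]
          rcases Finset.mem_insert.mp hy with rfl | hy
          · simp [ha']
          · obtain ⟨c, -, rfl⟩ := Finset.mem_image.mp hy
            simp [← map_pow, FiniteField.pow_card])
      rw [Finset.card_insert_of_notMem (by simpa using fun c => hne c),
        Finset.card_image_of_injective _ (algebraMap F K).injective, Finset.card_univ,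
        FiniteField.X_pow_card_sub_X_natDegree_eq K Fintype.one_lt_card] at hsub
      omega
    have hxm : ((x ^ m : GL (Fin 3) F) : Matrix (Fin 3) (Fin 3) F) = c • 1 := by
      have h := congrArg Subtype.val hc
      rw [ha, SubmonoidClass.coe_pow] at h
      rw [Units.val_pow_eq_pow_val]
      refine h.symm.trans ?_
      simp [Algebra.algebraMap_eq_smul_one]
    have hc0 : c ≠ 0 := fun h => (x ^ m).ne_zero (by rw [hxm, h, zero_smul])
    exact (Cfsg.Geo.mem_scalars_iff _).mpr ⟨Units.mk0 c hc0, hxm⟩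

/-- A matrix whose cube is a scalar that is not a cube has that scalar as determinant. -/
theorem det_of_cube {x : Matrix (Fin 3) (Fin 3) F} {c : F} (h : x ^ 3 = c • 1) (hc : ∀ a : F, a ^ 3 ≠ c) :
    x.det = c := by
  have hirr := X_pow_sub_C_irreducible_of_prime Nat.prime_three hc
  have hmin := minpoly.eq_of_irreducible_of_monic hirr (x := x)
    (by simp [h, Algebra.algebraMap_eq_smul_one]) (Polynomial.monic_X_pow_sub_C c (by norm_num))
  have hch : x.charpoly = Polynomial.X ^ 3 - Polynomial.C c := by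
    refine (Polynomial.eq_of_monic_of_associated (Polynomial.monic_X_pow_sub_C c (by norm_num))
      (charpoly_monic _) ?_).symm
    refine Polynomial.associated_of_dvd_of_natDegree_le (hmin.symm ▸ Matrix.minpoly_dvd_charpoly _)
      (charpoly_monic _).ne_zero ?_
    rw [charpoly_natDegree_eq_dim, Fintype.card_fin, Polynomial.natDegree_X_pow_sub_C]
  rw [det_eq_sign_charpoly_coeff, hch, Fintype.card_fin]
  simp only [Polynomial.coeff_sub, Polynomial.coeff_X_pow, Polynomial.coeff_C_zero]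
  norm_num

end CfsgLib.GeoPrime.Three
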