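import Mathlib
import Cfsg.Agent.GeoPrime.Three.General
import Cfsg.Agent.GeoPrime.Three.Cx

/-!
An orthonormal frame of a rational structure of index two over a prime field.
-/

set_option autoImplicit false

namespace CfsgLib.GeoPrime.Three

open Matrix

variable {p : ℕ} [Fact p.Prime]

/-- Symmetric matrices are congruent to diagonal ones. -/
theorem exists_diagonal (hp2 : (2 : ZMod p) ≠ 0) {G : Matrix (Fin 3) (Fin 3) (ZMod p)} (hG : Gᵀ = G)
    (hdet : G.det ≠ 0) :
    ∃ (V : Matrix (Fin 3) (Fin 3) (ZMod p)) (d : Fin 3 → ZMod p), (∀ i, d i ≠ 0) ∧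
      Vᵀ * G * V = Matrix.diagonal d := by
  classical
  haveI : Invertible (2 : ZMod p) := invertibleOfNonzero hp2
  set B := Matrix.toBilin' G with hBdef
  have hB : LinearMap.IsSymm B := by
    refine ⟨fun x y => ?_⟩
    simp only [hBdef, Matrix.toBilin'_apply']
    rw [dotProduct_mulVec, ← mulVec_transpose, hG, dotProduct_comm]
    simp
  obtain ⟨v₀, hv₀⟩ := LinearMap.BilinForm.exists_orthogonal_basis hB
  set v := v₀.reindex (finCongr (Module.finrank_fin_fun (ZMod p) (n := 3))) with hv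
  set V : Matrix (Fin 3) (Fin 3) (ZMod p) := (Pi.basisFun (ZMod p) (Fin 3)).toMatrix v with hV
  have hVdet : V.det ≠ 0 := by
    have h := (Pi.basisFun (ZMod p) (Fin 3)).toMatrix_mul_toMatrix_flip v
    intro h0
    have h1 := congrArg Matrix.det h
    rw [Matrix.det_mul, ← hV, h0, zero_mul, Matrix.det_one] at h1
    exact zero_ne_one h1
  have hent : ∀ i j, (Vᵀ * G * V) i j = B (v i) (v j) := by
    intro i j
    rw [hBdef, Matrix.toBilin'_apply', dotProduct_mulVec, mul_apply, dotProduct]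
    refine Finset.sum_congr rfl fun k _ => ?_
    simp [hV, mul_apply, vecMul, dotProduct, Module.Basis.toMatrix_apply]
  have hdiag : Vᵀ * G * V = Matrix.diagonal fun i => (Vᵀ * G * V) i i := by
    ext i j
    rcases eq_or_ne i j with rfl | hne
    · simp
    · rw [Matrix.diagonal_apply_ne _ hne, hent]
      simp only [hv, Module.Basis.reindex_apply]
      exact hv₀ (fun h => hne ((finCongr _).symm.injective h))
  refine ⟨V, _, fun i h0 => ?_, hdiag⟩
  have h1 := congrArg Matrix.det hdiag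
  rw [Matrix.det_mul, Matrix.det_mul, Matrix.det_transpose, Matrix.det_diagonal] at h1
  exact mul_ne_zero (mul_ne_zero hVdet hdet) hVdet (h1.trans (Finset.prod_eq_zero (Finset.mem_univ i) h0))

variable {F : Type*} [Field F] [Fintype F] [CharP F p] {q : ℕ} {σ : F ≃+* F}

local notation "ι₀" => (ZMod.castHom (dvd_refl p) F)

theorem map_ι_injective {A B : Matrix (Fin 3) (Fin 3) (ZMod p)} (h : A.map ι₀ = B.map ι₀) : A = B :=
  Matrix.map_injective (RingHom.injective _) h

theorem conjMat_map (σ : F ≃+* F) (A : Matrix (Fin 3) (Fin 3) (ZMod p)) : conjMat σ (A.map ι₀) = A.map ι₀ := by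
  ext i j
  exact cast_fixed σ _

theorem conjMat_smul (σ : F ≃+* F) (c : F) (A : Matrix (Fin 3) (Fin 3) F) :
    conjMat σ (c • A) = σ c • conjMat σ A := by
  ext i j
  exact map_mul σ _ _

/-- The subfield of index two of a field of order `p²` is the prime field. -/
theorem exists_cast_of_mem (hF : Fintype.card F = p ^ 2) {F₀ : Subfield F}
    (hc : Fintype.card F = Nat.card F₀ ^ 2) {x : F} (hx : x ∈ F₀) : ∃ a : ZMod p, ι₀ a = x := by
  have hcard : Nat.card F₀ = p := Nat.pow_left_injective (two_ne_zero) (hc.symm.trans hF)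
  have hmem : ∀ a : ZMod p, ι₀ a ∈ F₀ := fun a => by
    rw [← ZMod.natCast_zmod_val a, map_natCast]
    exact natCast_mem F₀ _
  have hbij : Function.Bijective (fun a : ZMod p => (⟨ι₀ a, hmem a⟩ : F₀)) :=
    (Nat.bijective_iff_injective_and_card _).mpr
      ⟨fun a b h => (ι₀).injective (congrArg Subtype.val h), by rw [Nat.card_zmod, hcard]⟩
  obtain ⟨a, ha⟩ := hbij.2 ⟨x, hx⟩
  exact ⟨a, congrArg Subtype.val ha⟩

/-- Elements of a rational structure of index two are scalar times orthogonal matrices in a suitable frame. -/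
theorem exists_orth_frame (D : UData 3 F q σ) (hqp : q = p) (hp2 : (2 : ZMod p) ≠ 0)
    (hdiag : ∀ d : Fin 3 → ZMod p, (∀ i, d i ≠ 0) →
      ∃ (M : Matrix (Fin 3) (Fin 3) (ZMod p)) (l : ZMod p), l ≠ 0 ∧ Mᵀ * Matrix.diagonal d * M = l • 1)
    {H : Subgroup (GL (Fin 3) F)} (hHS : H ≤ specialUnitary 3 F q) {F₀ : Subfield F}
    (hc : Fintype.card F = Nat.card F₀ ^ 2) {P : GL (Fin 3) F}
    (hform : Cfsg.Geo.IsFormRationalStructure (Cfsg.hermForm 3 F q) F₀ 1 P)
    (hle : H ≤ Cfsg.Geo.subfieldSubgroup F₀ P) :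
    ∃ g ∈ Cfsg.GU 3 F q, ∀ h ∈ H, ∃ (c : F) (O : Matrix (Fin 3) (Fin 3) (ZMod p)),
      Oᵀ * O = 1 ∧ O.det = 1 ∧ c ^ 3 = 1 ∧
      ((g * h * g⁻¹ : GL (Fin 3) F) : Matrix (Fin 3) (Fin 3) F) = c • O.map ι₀ := by
  classical
  have hF : Fintype.card F = p ^ 2 := by rw [D.card, hqp]
  have hf := D.unitary (n := 3)
  set P' := (P : Matrix (Fin 3) (Fin 3) F)
  set GF := P'ᵀ * conjMat σ P' with hGF
  have hsingle : ∀ i : Fin 3, (σ ∘ (Pi.single i (1 : F))) = Pi.single i 1 := fun i => by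
    funext k
    rcases eq_or_ne k i with rfl | h
    · simp
    · simp [h]
  have hGFij : ∀ i j, GF i j = Cfsg.hermForm 3 F q (P' *ᵥ Pi.single i 1) (P' *ᵥ Pi.single j 1) := by
    intro i j
    rw [form_pullback D, ← hGF, hsingle]
    simp
  have hGmem : ∀ i j, GF i j ∈ F₀ := by
    intro i j
    have hk : ∀ (i k : Fin 3), (Pi.single i (1 : F) : Fin 3 → F) k ∈ F₀ := fun i k => by
      rcases eq_or_ne k i with rfl | h
      · simpa using F₀.one_mem
      · simpa [h] using F₀.zero_mem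
    have := hform _ _ (hk i) (hk j)
    rw [one_mul] at this
    rw [hGFij]; exact this
  choose G hG using fun i j => exists_cast_of_mem (p := p) hF hc (hGmem i j)
  let G₀ : Matrix (Fin 3) (Fin 3) (ZMod p) := Matrix.of G
  have hG₀ : G₀.map ι₀ = GF := by ext i j; exact hG i j
  have hsym : G₀ᵀ = G₀ := by
    ext i j
    refine (ι₀).injective ?_
    show ι₀ (G j i) = ι₀ (G i j)
    rw [hG, hG, hGFij j i, hf.herm, ← hGFij i j, ← hG i j, cast_fixed]
  have hdetG : G₀.det ≠ 0 := by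
    intro h0
    have h1 : GF.det = 0 := by
      rw [← hG₀, ← RingHom.mapMatrix_apply, ← RingHom.map_det, h0, map_zero]
    have hu : P'.det ≠ 0 := (P.isUnit.map Matrix.detMonoidHom).ne_zero
    have h2 : (conjMat σ P').det = σ P'.det := (RingHom.map_det (σ : F →+* F) P').symm
    rw [hGF, Matrix.det_mul, Matrix.det_transpose, h2] at h1
    rcases mul_eq_zero.mp h1 with h | h
    · exact hu h
    · exact hu ((map_eq_zero σ).mp h)
  obtain ⟨V, d, hd0, hV⟩ := exists_diagonal hp2 hsym hdetG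
  obtain ⟨M, l, hl0, hM⟩ := hdiag d hd0
  obtain ⟨W, hWG⟩ : ∃ W, Wᵀ * G₀ * W = l • 1 := ⟨V * M, by
    rw [Matrix.transpose_mul, ← hM, ← hV]
    simp only [mul_assoc]⟩
  have hWdet : W.det ≠ 0 := by
    intro h0
    have h1 := congrArg Matrix.det hWG
    rw [Matrix.det_mul, h0, mul_zero, Matrix.det_smul, Matrix.det_one, mul_one] at h1
    exact pow_ne_zero _ hl0 h1.symm
  obtain ⟨a, ha0, ha⟩ := exists_norm_eq D.ne_refl D.inv (inv_ne_zero ((map_ne_zero ι₀).mpr hl0))
    (by rw [map_inv₀, cast_fixed])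
  set A : Matrix (Fin 3) (Fin 3) F := a • (P' * W.map ι₀) with hA
  have hAA : Aᵀ * conjMat σ A = 1 := by
    rw [hA, Matrix.transpose_smul, conjMat_smul, smul_mul_smul_comm, conjMat_mul, conjMat_map,
      Matrix.transpose_mul, mul_assoc, ← mul_assoc P'ᵀ, ← hGF, ← hG₀, ← Matrix.transpose_map, ← Matrix.map_mul,
      ← Matrix.map_mul, ← mul_assoc, hWG, ha]
    ext i j
    rcases eq_or_ne i j with rfl | hne
    · simp only [Matrix.smul_apply, Matrix.map_apply, Matrix.one_apply_eq, smul_eq_mul, mul_one]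
      exact inv_mul_cancel₀ ((map_ne_zero ι₀).mpr hl0)
    · simp [hne]
  have hAdet : A.det ≠ 0 := by
    intro h0
    have h1 := congrArg Matrix.det hAA
    rw [Matrix.det_mul, Matrix.det_transpose, h0, zero_mul, Matrix.det_one] at h1
    exact zero_ne_one h1
  set t := GeneralLinearGroup.mkOfDetNeZero A hAdet with ht
  have htU : t ∈ Cfsg.GU 3 F q := mem_GU.mpr fun u v => by
    show Cfsg.hermForm 3 F q (A *ᵥ u) (A *ᵥ v) = _
    rw [form_pullback D, hAA, one_mulVec, herm_dot D]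
  refine ⟨t⁻¹, (Cfsg.GU 3 F q).inv_mem htU, fun h hh => ?_⟩
  obtain ⟨g₀, c₀, hg₀⟩ := mem_subfieldSubgroup.mp (hle hh)
  choose N hN using fun i j => exists_cast_of_mem (p := p) hF hc (((g₀ : Matrix (Fin 3) (Fin 3) F₀) i j).2)
  let N₀ : Matrix (Fin 3) (Fin 3) (ZMod p) := Matrix.of N
  have hN₀ : ((P⁻¹ * h * P : GL (Fin 3) F) : Matrix (Fin 3) (Fin 3) F) = (c₀ : F) • N₀.map ι₀ := by
    rw [hg₀]; congr 1; ext i j; exact (hN i j).symm
  set M₂ := W⁻¹ * N₀ * W with hM₂
  have hWu : IsUnit W.det := isUnit_iff_ne_zero.mpr hWdet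
  have hWM : W * M₂ = N₀ * W := by rw [hM₂, ← mul_assoc, ← mul_assoc, Matrix.mul_nonsing_inv _ hWu, one_mul]
  have hh' : ((t⁻¹ * h * t⁻¹⁻¹ : GL (Fin 3) F) : Matrix (Fin 3) (Fin 3) F) = (c₀ : F) • M₂.map ι₀ := by
    rw [inv_inv]
    have key : (h : Matrix (Fin 3) (Fin 3) F) * A = A * ((c₀ : F) • M₂.map ι₀) := by
      have e1 : (h : Matrix (Fin 3) (Fin 3) F) * P' = P' * ((c₀ : F) • N₀.map ι₀) := by
        rw [← hN₀, ← Units.val_mul, ← Units.val_mul]; simp [mul_assoc]
      rw [hA, mul_smul_comm, ← mul_assoc, e1, mul_smul_comm (c₀ : F) P', smul_mul_assoc, smul_mul_assoc,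
        mul_smul_comm, mul_assoc, mul_assoc, ← Matrix.map_mul, ← Matrix.map_mul, hWM]
    rw [mul_assoc, Units.val_mul, Units.val_mul, show (t : Matrix (Fin 3) (Fin 3) F) = A from rfl, key, ← mul_assoc,
      show A = (t : Matrix (Fin 3) (Fin 3) F) from rfl, ← Units.val_mul, inv_mul_cancel, Units.val_one, one_mul]
  have hh'S : (t⁻¹ * h * t⁻¹⁻¹ : GL (Fin 3) F) ∈ specialUnitary 3 F q := by
    have := conj_mem_su htU h (hHS hh)
    rwa [inv_inv]
  have hu1 := mem_GU_matrix D hh'S.1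
  have hd1 := mem_specialLinear.mp hh'S.2
  rw [hh', Matrix.transpose_smul, conjMat_smul, conjMat_map, smul_mul_smul_comm, ← Matrix.transpose_map,
    ← Matrix.map_mul] at hu1
  rw [hh', Matrix.det_smul, Fintype.card_fin, ← RingHom.mapMatrix_apply, ← RingHom.map_det] at hd1
  set ν := (M₂ᵀ * M₂) 0 0
  have h00 : (c₀ : F) * σ c₀ * ι₀ ν = 1 := by
    have := congrFun (congrFun hu1 0) 0
    simp only [Matrix.smul_apply, Matrix.map_apply, Matrix.one_apply_eq, smul_eq_mul] at this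
    exact this
  have hν0 : ν ≠ 0 := fun h0 => by rw [h0, map_zero, mul_zero] at h00; exact zero_ne_one h00
  have hMM : M₂ᵀ * M₂ = ν • 1 := by
    refine map_ι_injective (F := F) ?_
    have h1 : ι₀ ν • ((c₀ : F) * σ c₀) • (M₂ᵀ * M₂).map ι₀ = ι₀ ν • 1 := by rw [hu1]
    rw [smul_smul, mul_comm (ι₀ ν), h00, one_smul] at h1
    rw [h1]
    ext i j
    rcases eq_or_ne i j with rfl | hne
    · simp
    · simp [hne]
  have hdd : M₂.det ^ 2 = ν ^ 3 := by
    have := congrArg Matrix.det hMM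
    rw [Matrix.det_mul, Matrix.det_transpose, Matrix.det_smul, Matrix.det_one, mul_one, Fintype.card_fin] at this
    rw [sq, this]
  have hd20 : M₂.det ≠ 0 := fun h0 => by
    rw [h0, zero_pow two_ne_zero] at hdd; exact pow_ne_zero _ hν0 hdd.symm
  set s := M₂.det / ν with hs
  have hs2 : s ^ 2 = ν := by
    rw [hs, div_pow, hdd]; field_simp
  have hs0 : s ≠ 0 := div_ne_zero hd20 hν0
  refine ⟨(c₀ : F) * ι₀ s, s⁻¹ • M₂, ?_, ?_, ?_, ?_⟩
  · rw [Matrix.transpose_smul, smul_mul_smul_comm, hMM, smul_smul]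
    have : s⁻¹ * s⁻¹ * ν = 1 := by rw [← hs2]; field_simp
    rw [this, one_smul]
  · rw [Matrix.det_smul, Fintype.card_fin, hs, inv_div, div_pow, ← hdd]
    field_simp
  · rw [mul_pow, ← map_pow, hs, div_pow, ← hdd]
    have : M₂.det ^ 3 / M₂.det ^ 2 = M₂.det := by field_simp
    rw [this]; exact hd1
  · rw [hh']
    ext i j
    simp only [Matrix.smul_apply, Matrix.map_apply, smul_eq_mul, mul_assoc, ← map_mul]
    rw [mul_inv_cancel_left₀ hs0]

end CfsgLib.GeoPrime.Three
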