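import Mathlib
import Cfsg.Agent.GeoPrime.Three.Cx

/-!
Matrices mapping a listed set of vectors into itself.
-/

set_option autoImplicit false

namespace CfsgLib.GeoPrime.Three

open Matrix

variable {F : Type*} [Field F] {p : ℕ} [Fact p.Prime] [CharP F p] {σ : F ≃+* F} {d : ZMod p} {s : F}

/-- The matrix maps the set into itself. -/
def Pres (X : Set (Fin 3 → F)) (M : Matrix (Fin 3) (Fin 3) F) : Prop := ∀ w ∈ X, M *ᵥ w ∈ X

theorem Pres.one (X : Set (Fin 3 → F)) : Pres X (1 : Matrix (Fin 3) (Fin 3) F) :=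
  fun w hw => by rwa [one_mulVec]

theorem Pres.mul {X : Set (Fin 3 → F)} {M N : Matrix (Fin 3) (Fin 3) F} (hM : Pres X M) (hN : Pres X N) :
    Pres X (M * N) := fun w hw => by rw [← mulVec_mulVec]; exact hM _ (hN w hw)

theorem Pres.pow {X : Set (Fin 3 → F)} {M : Matrix (Fin 3) (Fin 3) F} (hM : Pres X M) (k : ℕ) :
    Pres X (M ^ k) := by
  induction k with
  | zero => rw [pow_zero]; exact Pres.one X
  | succ k ih => rw [pow_succ]; exact ih.mul hM

variable [Fintype F] (hs : Root σ d s)

include hs in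
theorem pres_of_keeps {L : List ℕ} {mask : ℕ} (hlt : L.all (fun c => decide (c < (p * p) ^ 3)) = true)
    (hsub : L.all (fun c => Nat.testBit mask c) = true) (heq : mask = L.foldr (fun c m => 2 ^ c ||| m) 0)
    {A : M3 p} (h : keeps d L mask A = true) : Pres (vecSet s p L) (matF s A) :=
  (keeps_iff hs hlt hsub (fun _ hc => mem_of_testBit (heq ▸ hc)) A).mpr h

include hs in
theorem not_pres_of_keeps {L : List ℕ} {mask : ℕ} (hlt : L.all (fun c => decide (c < (p * p) ^ 3)) = true)
    (hsub : L.all (fun c => Nat.testBit mask c) = true) (heq : mask = L.foldr (fun c m => 2 ^ c ||| m) 0)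
    {A : M3 p} (h : keeps d L mask A = false) : ¬ Pres (vecSet s p L) (matF s A) := fun hp => by
  rw [(keeps_iff hs hlt hsub (fun _ hc => mem_of_testBit (heq ▸ hc)) A).mp hp] at h
  exact Bool.noConfusion h

include hs in
/-- Cube roots of unity, given one of them. -/
theorem eq_of_cube_eq_one {w : Cx p} (hw : mulC d w w + w + (1, 0) = 0) {c : F} (hc : c ^ 3 = 1) :
    c = 1 ∨ c = toF s w ∨ c = toF s w ^ 2 := by
  have h := congrArg (toF s) hw
  rw [toF_add, toF_add, toF_mul hs, toF_one, toF_zero] at h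
  have h3 : (c - 1) * ((c - toF s w) * (c - toF s w ^ 2)) = 0 := by
    linear_combination hc + (c - c ^ 2) * h + (toF s w - 1) * (c - 1) * h
  rcases mul_eq_zero.mp h3 with h' | h'
  · exact Or.inl (sub_eq_zero.mp h')
  · rcases mul_eq_zero.mp h' with h'' | h''
    · exact Or.inr (Or.inl (sub_eq_zero.mp h''))
    · exact Or.inr (Or.inr (sub_eq_zero.mp h''))

end CfsgLib.GeoPrime.Three
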