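import Mathlib
import Cfsg.Agent.GeoPrime.Three.General
import Cfsg.Agent.GeoPrime.Three.Pres
import Cfsg.Agent.GeoPrime.Three.DataFive

/-!
No monomial subgroup is maximal in SU(3,5).
-/

set_option autoImplicit false

namespace CfsgLib.GeoPrime.Three

open Matrix

local instance factFiveM : Fact (Nat.Prime 5) := ⟨by norm_num⟩

variable {F : Type*} [Field F] [Fintype F] {σ : F ≃+* F}

/-- The frame of a basis of orthogonal vectors of norm one. -/
theorem exists_frame {q : ℕ} (D : UData 3 F q σ) (b : Fin 3 → Fin 3 → F)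
    (hb : ∀ i j, Cfsg.hermForm 3 F q (b i) (b j) = if i = j then 1 else 0) :
    ∃ g ∈ Cfsg.GU 3 F q, ∀ (h : GL (Fin 3) F) (i j : Fin 3) (r : F),
      (h : Matrix (Fin 3) (Fin 3) F) *ᵥ b i = r • b j →
      ∀ k, ((g * h * g⁻¹ : GL (Fin 3) F) : Matrix (Fin 3) (Fin 3) F) k i = if k = j then r else 0 := by
  classical
  set A : Matrix (Fin 3) (Fin 3) F := Matrix.of fun r c => b c r with hA
  have hAA : Aᵀ * conjMat σ A = 1 := by
    ext i j
    rw [Matrix.one_apply, ← hb, herm_dot D]
    simp [A, Matrix.mul_apply, dotProduct]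
  have hAdet : A.det ≠ 0 := by
    intro h0
    have h1 := congrArg Matrix.det hAA
    rw [Matrix.det_mul, Matrix.det_transpose, h0, zero_mul, Matrix.det_one] at h1
    exact zero_ne_one h1
  set t := GeneralLinearGroup.mkOfDetNeZero A hAdet with ht
  have hcol : ∀ i, (t : Matrix (Fin 3) (Fin 3) F) *ᵥ Pi.single i 1 = b i := fun i => by
    funext r
    show (A *ᵥ Pi.single i 1) r = b i r
    simp [A]
  have htU : t ∈ Cfsg.GU 3 F q := mem_GU.mpr fun u v => by
    show Cfsg.hermForm 3 F q (A *ᵥ u) (A *ᵥ v) = _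
    rw [form_pullback D, hAA, one_mulVec, herm_dot D]
  refine ⟨t⁻¹, (Cfsg.GU 3 F q).inv_mem htU, fun h i j r hhr k => ?_⟩
  have e : ((t⁻¹ * h * t⁻¹⁻¹ : GL (Fin 3) F) : Matrix (Fin 3) (Fin 3) F) *ᵥ Pi.single i 1 = r • Pi.single j 1 := by
    rw [inv_inv, Units.val_mul, Units.val_mul, ← mulVec_mulVec, ← mulVec_mulVec, hcol, hhr, mulVec_smul, ← hcol,
      gl_inv_mulVec]
  have := congrFun e k
  rw [mulVec_single_one] at this
  refine this.trans ?_
  rcases eq_or_ne k j with rfl | hne
  · simp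
  · simp [hne]

/-- Elements of norm one in a field of order 25. -/
theorem eq_pow_e6 [CharP F 5] (D : UData 3 F 5 σ) {s : F} (hs : Root σ (2 : ZMod 5) s) {c : F}
    (hc : c * σ c = 1) : ∃ k : Fin 6, c = toF s DataFive.e6 ^ (k : ℕ) := by
  classical
  set e := toF s DataFive.e6
  have he2 : e ^ 2 = toF s (mulC 2 DataFive.e6 DataFive.e6) := by rw [toF_mul hs, sq]
  have he3 : e ^ 3 = toF s (mulC 2 (mulC 2 DataFive.e6 DataFive.e6) DataFive.e6) := by rw [toF_mul hs, ← he2, ← pow_succ]
  have h3 : e ^ 3 ≠ 1 := by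
    rw [he3, ← toF_one (p := 5) s]
    exact fun h => (by decide : mulC (2 : ZMod 5) (mulC 2 DataFive.e6 DataFive.e6) DataFive.e6 ≠ (1, 0))
      (toF_injective hs h)
  have h2 : e ^ 2 ≠ 1 := by
    rw [he2, ← toF_one (p := 5) s]
    exact fun h => (by decide : mulC (2 : ZMod 5) DataFive.e6 DataFive.e6 ≠ (1, 0)) (toF_injective hs h)
  have h6 : e ^ 6 = 1 := by
    rw [show 6 = 3 * 2 by norm_num, pow_mul, he3, sq, ← toF_mul hs, ← toF_one (p := 5) s]
    congr 1
  have hprim : IsPrimitiveRoot e 6 := by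
    refine ⟨h6, fun l hl => ?_⟩
    have hd : orderOf e ∣ 6 := orderOf_dvd_of_pow_eq_one h6
    have hle := Nat.le_of_dvd (by norm_num) hd
    have hpos : 0 < orderOf e := orderOf_pos_iff.mpr (isOfFinOrder_iff_pow_eq_one.mpr ⟨6, by norm_num, h6⟩)
    have ho : orderOf e = 6 := by
      generalize hm : orderOf e = m at hd hle hpos
      interval_cases m <;> try rfl
      · exact absurd (by rw [orderOf_eq_one_iff.mp hm, one_pow]) h2
      · exact absurd (hm ▸ pow_orderOf_eq_one e) h2
      · exact absurd (hm ▸ pow_orderOf_eq_one e) h3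
      all_goals norm_num at hd
    exact ho ▸ orderOf_dvd_of_pow_eq_one hl
  have hc6 : c ^ 6 = 1 := by rw [pow_succ, mul_comm, ← D.conj, hc]
  obtain ⟨i, hi, rfl⟩ := hprim.eq_pow_of_pow_eq_one hc6
  exact ⟨⟨i, hi⟩, rfl⟩

/-- A signed permutation. -/
abbrev permMat (k : Fin 6) : M3 5 := ofList 5 (DataFive.permList.getD k.val [])

/-- The images under a signed permutation. -/
def permMap (k : Fin 6) (i : Fin 3) : Fin 3 := Fin.ofNat 3 ((DataFive.permImg.getD k.val []).getD i.val 0)

theorem perm_zero : ∀ k i j, j ≠ permMap k i → permMat k j i = 0 := by decide +kernel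

theorem exists_perm : ∀ a b c : Fin 3, a ≠ b → a ≠ c → b ≠ c →
    ∃ k, permMap k 0 = a ∧ permMap k 1 = b ∧ permMap k 2 = c := by decide +kernel

theorem no_monomial_five [CharP F 5] (D : UData 3 F 5 σ) {H : Subgroup (GL (Fin 3) F)}
    (hH : Cfsg.Geo.IsMaximalIn (specialUnitary 3 F 5) H) (b : Module.Basis (Fin 3) F (Fin 3 → F))
    (horth : ∀ i j, i ≠ j → Cfsg.hermForm 3 F 5 (b i) (b j) = 0)
    (hdiag : ∀ i, Cfsg.hermForm 3 F 5 (b i) (b i) ≠ 0)
    (hle : H ≤ Cfsg.Geo.decompositionStabilizer (basisLines b)) : False := by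
  classical
  have hf := D.unitary (n := 3)
  have hsq := isSesq_of_unitary hf
  choose a ha0 ha using fun i => exists_norm_eq D.ne_refl D.inv (inv_ne_zero (hdiag i))
    (by rw [map_inv₀, ← hf.herm])
  obtain ⟨g, hg, hgh⟩ := exists_frame D (fun i => a i • b i) (fun i j => by
    rw [hf.smul_left, hsq.smul_right, ← mul_assoc]
    rcases eq_or_ne i j with rfl | hne
    · rw [ha, inv_mul_cancel₀ (hdiag i), if_pos rfl]
    · rw [horth i j hne, mul_zero, if_neg hne])
  -- monomial images
  have hmon : ∀ h ∈ H, ∃ π : Fin 3 → Fin 3, Function.Injective π ∧ ∀ i k, k ≠ π i →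
      ((g * h * g⁻¹ : GL (Fin 3) F) : Matrix (Fin 3) (Fin 3) F) k i = 0 := by
    intro h hh
    obtain ⟨π, hπ⟩ := mem_decompositionStabilizer.mp (hle hh)
    refine ⟨π, π.injective, fun i k hk => ?_⟩
    have hm : (h : Matrix (Fin 3) (Fin 3) F) *ᵥ b i ∈ basisLines b (π i) := by
      rw [← hπ i]
      exact ⟨b i, Submodule.mem_span_singleton_self _, by simp⟩
    obtain ⟨r, hr⟩ := Submodule.mem_span_singleton.mp hm
    rw [hgh h i (π i) (a i * r / a (π i)) (by
      rw [mulVec_smul, ← hr, smul_smul, smul_smul, div_mul_cancel₀ _ (ha0 _)]), if_neg hk]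
  obtain ⟨s, hs⟩ := exists_root D rfl (by decide) (d := (2 : ZMod 5)) (by decide)
  set X := vecSet s 5 DataFive.orbA
  obtain ⟨S, hS⟩ := exists_stabilizer X
  have hk : ∀ {A : M3 5}, keeps 2 DataFive.orbA DataFive.mskA A = true → Pres X (matF s A) := fun h =>
    pres_of_keeps hs DataFive.orbA_lt DataFive.orbA_sub DataFive.mskA_eq h
  obtain ⟨z, hz, hzA⟩ := exists_su hs D DataFive.g7_ok.1 DataFive.g7_ok.2.1
  obtain ⟨t, ht, htA⟩ := exists_su hs D DataFive.t0_ok.1 DataFive.t0_ok.2.1
  refine no_overgroup hH (S := S) (g := g) (conj_mem_su hg) (fun h hh => (hS _).mpr ?_) hz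
    ((hS z).mpr (hzA ▸ hk DataFive.g7_ok.2.2)) (fun hzH => ?_) ht (fun htS => ?_)
  · obtain ⟨π, hinj, hπ⟩ := hmon h hh
    set h' := g * h * g⁻¹ with hh'
    have hh'S : h' ∈ specialUnitary 3 F 5 := by
      simpa [hh'] using conj_mem_su ((Cfsg.GU 3 F 5).inv_mem hg) h (hH.1.le hh)
    obtain ⟨k, k0, k1, k2⟩ := exists_perm (π 0) (π 1) (π 2) (hinj.ne (by decide)) (hinj.ne (by decide))
      (hinj.ne (by decide))
    have hπk : ∀ i, π i = permMap k i := fun i => by fin_cases i <;> simp [k0, k1, k2]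
    obtain ⟨pu, pd, pk⟩ := DataFive.perm_ok k
    obtain ⟨P, hP, hPA⟩ := exists_su hs D pu pd
    set M : GL (Fin 3) F := P⁻¹ * h'
    have hMS : M ∈ specialUnitary 3 F 5 := (specialUnitary 3 F 5).mul_mem ((specialUnitary 3 F 5).inv_mem hP) hh'S
    have hPi : ((P⁻¹ : GL (Fin 3) F) : Matrix (Fin 3) (Fin 3) F) = matF s (starM (permMat k)) := by
      have h1 : matF s (starM (permMat k)) * (P : Matrix (Fin 3) (Fin 3) F) = 1 := by
        rw [hPA, ← matF_mul hs, matF_congr s pu, matF_one]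
      exact (Units.inv_eq_of_mul_eq_one_left h1).symm ▸ rfl
    have hoff : ∀ j i, j ≠ i → (M : Matrix (Fin 3) (Fin 3) F) j i = 0 := by
      intro j i hji
      rw [Units.val_mul, hPi, Matrix.mul_apply]
      refine Finset.sum_eq_zero fun l _ => ?_
      rcases eq_or_ne l (π i) with rfl | hl
      · have : permMat k (π i) j = 0 := perm_zero k j _ (by
          rw [← hπk]; exact fun e => hji (hinj e).symm)
        simp [matF, starM, this, conjC, toF]
      · rw [hh', hπ i l hl, mul_zero]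
    have hun := mem_GU_matrix D hMS.1
    have hdd := mem_specialLinear.mp hMS.2
    set N := (M : Matrix (Fin 3) (Fin 3) F)
    have hnorm : ∀ i, N i i * σ (N i i) = 1 := by
      intro i
      have := congrFun (congrFun hun i) i
      rw [Matrix.mul_apply, Finset.sum_eq_single i (fun l _ hl => by
        rw [Matrix.transpose_apply, hoff l i hl, zero_mul]) (fun h => absurd (Finset.mem_univ i) h)] at this
      simpa using this
    have hdet : N 0 0 * N 1 1 * N 2 2 = 1 := by
      rw [Matrix.det_fin_three, hoff 0 1 (by decide), hoff 0 2 (by decide), hoff 1 2 (by decide)] at hdd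
      linear_combination hdd
    obtain ⟨a0, ha0'⟩ := eq_pow_e6 D hs (hnorm 0)
    obtain ⟨a1, ha1'⟩ := eq_pow_e6 D hs (hnorm 1)
    have hd : ∀ (d : M3 5) (c : Fin 3 → Cx 5), (∀ i j, d i j = if i = j then c i else 0) →
        matF s d = Matrix.diagonal fun i => toF s (c i) := by
      intro d c hdc
      ext i j
      rcases eq_or_ne i j with rfl | hne
      · simp [matF, hdc]
      · simp [matF, hdc, hne, toF_zero]
    have e1 := hd DataFive.d1 ![DataFive.e6, (1, 0), ofCode 5 18] (by decide)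
    have e2 := hd DataFive.d2 ![(1, 0), DataFive.e6, ofCode 5 18] (by decide)
    have hee : toF s DataFive.e6 * toF s (ofCode 5 18) = 1 := by
      rw [← toF_mul hs, ← toF_one (p := 5) s]; congr 1
    have hN : N = matF s DataFive.d1 ^ (a0 : ℕ) * matF s DataFive.d2 ^ (a1 : ℕ) := by
      rw [e1, e2, Matrix.diagonal_pow, Matrix.diagonal_pow, Matrix.diagonal_mul_diagonal]
      ext i j
      rcases eq_or_ne i j with rfl | hne
      · rw [Matrix.diagonal_apply_eq]
        fin_cases i
        · simpa [toF_one] using ha0'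
        · simpa [toF_one] using ha1'
        · simp only [Pi.pow_apply]
          have h2 : N 2 2 = 1 * (toF s (ofCode 5 18)) ^ (a0 : ℕ) * toF s (ofCode 5 18) ^ (a1 : ℕ) := by
            rw [← hdet, ha0', ha1']
            calc N 2 2 = (toF s DataFive.e6 * toF s (ofCode 5 18)) ^ (a0 : ℕ) *
                  (toF s DataFive.e6 * toF s (ofCode 5 18)) ^ (a1 : ℕ) * N 2 2 := by
                  rw [hee, one_pow, one_pow, one_mul, one_mul]
              _ = _ := by ring
          simpa using h2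
      · rw [Matrix.diagonal_apply_ne _ hne]; exact hoff i j hne
    have : h' = P * M := by simp [M]
    rw [this]
    show Pres X ((P * M : GL (Fin 3) F) : Matrix (Fin 3) (Fin 3) F)
    rw [Units.val_mul, hPA, show (M : Matrix (Fin 3) (Fin 3) F) = N from rfl, hN]
    exact (hk pk).mul (((hk DataFive.d1_ok.2.2).pow _).mul ((hk DataFive.d2_ok.2.2).pow _))
  · obtain ⟨π, -, hπ⟩ := hmon _ hzH
    obtain ⟨i, j, k, hjk, hj, hk'⟩ := DataFive.g7_not_monomial
    have hzero : ∀ l, l ≠ π i → DataFive.g7 l i = 0 := fun l hl => by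
      have := hπ i l hl
      rw [show g * (g⁻¹ * z * g) * g⁻¹ = z by group, hzA] at this
      exact toF_injective hs (this.trans (toF_zero s).symm)
    rcases eq_or_ne j (π i) with rfl | hne
    · exact hk' (hzero k hjk.symm)
    · exact hj (hzero j hne)
  · exact not_pres_of_keeps hs DataFive.orbA_lt DataFive.orbA_sub DataFive.mskA_eq DataFive.t0_ok.2.2.1
      (htA ▸ (hS t).mp htS)

end CfsgLib.GeoPrime.Three
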