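import Mathlib
import Cfsg.Agent.GeoPrime.Unitary
import Cfsg.Agent.GeoPrime.Three.General
import Cfsg.Agent.GeoPrime.Three.Pres
import Cfsg.Agent.GeoPrime.Three.Monomial
import Cfsg.Agent.GeoPrime.Three.DataFive

/-!
No normaliser of a group of order 27 is maximal in SU(3,5).
-/

set_option autoImplicit false

namespace CfsgLib.GeoPrime.Three

open Matrix

local instance factFiveH : Fact (Nat.Prime 5) := ⟨by norm_num⟩

/-- The exponents of `ω` as pairs. -/
def w3pow (k : ℕ) : Cx 5 := [(1, 0), DataFive.w3, mulC 2 DataFive.w3 DataFive.w3].getD (k % 3) (1, 0)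

/-- A shift times a diagonal matrix. -/
def shiftMat (a k0 k1 k2 : Fin 3) : M3 5 := fun r c =>
  if r = a + c then w3pow (![k0, k1, k2] c).val else 0

theorem exists_heis : ∀ a k0 k1 k2 : Fin 3, k0 + k1 + k2 = 0 →
    ∃ i, ∀ r c, shiftMat a k0 k1 k2 r c = DataFive.heis i r c := by decide +kernel

theorem heis_inj : ∀ i j, (∀ r c, DataFive.heis i r c = DataFive.heis j r c) → i = j := by decide +kernel

theorem heis_comm : ∀ r c, mulM 2 (DataFive.heis DataFive.iX) (DataFive.heis DataFive.iC) r c =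
    mulC 2 DataFive.w3 (mulM 2 (DataFive.heis DataFive.iC) (DataFive.heis DataFive.iX) r c) := by decide +kernel

theorem heis_X : ∀ r c, DataFive.heis DataFive.iX r c = if r = c then w3pow c.val else 0 := by decide +kernel

theorem heis_C : ∀ r c, DataFive.heis DataFive.iC r c = if r = c + 1 then (1, 0) else 0 := by decide +kernel

theorem sc_word : ∀ r c, mulM 2 (mulM 2 (DataFive.ngen 0) (DataFive.ngen 1))
    (mulM 2 (mulM 2 (DataFive.ngen 0) (DataFive.ngen 0)) (mulM 2 (DataFive.ngen 1) (DataFive.ngen 1))) r c =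
    DataFive.sc r c := by decide +kernel

theorem sc_scalar : ∀ r c, DataFive.sc r c = if r = c then DataFive.w3 else 0 := by decide +kernel

theorem dE_det : detM 2 DataFive.dE = DataFive.w3 := by decide +kernel

variable {F : Type*} [Field F] [Fintype F] {σ : F ≃+* F}

/-- Representatives of the normaliser preserve the orbit. -/
theorem pres_normalizer [CharP F 5] {s : F} (hs : Root σ (2 : ZMod 5) s) :
    (∀ k, Pres (vecSet s 5 DataFive.orbB) (matF s (DataFive.nrep k)) ∧ (matF s (DataFive.nrep k)).det = 1) ∧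
      Pres (vecSet s 5 DataFive.orbB) (toF s DataFive.w3 • (1 : Matrix (Fin 3) (Fin 3) F)) := by
  have hk : ∀ {A : M3 5}, keeps 2 DataFive.orbB DataFive.mskB A = true →
      Pres (vecSet s 5 DataFive.orbB) (matF s A) := fun h =>
    pres_of_keeps hs DataFive.orbB_lt DataFive.orbB_sub DataFive.mskB_eq h
  have hgen : ∀ i, Pres (vecSet s 5 DataFive.orbB) (matF s (DataFive.ngen i)) := fun i =>
    hk (DataFive.ngen_ok i).2.2
  have hgdet : ∀ i, (matF s (DataFive.ngen i)).det = 1 := fun i => by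
    rw [det_matF hs, (DataFive.ngen_ok i).2.1, toF_one]
  have hfold : ∀ (l : List (Fin 5)) (A : M3 5),
      (Pres (vecSet s 5 DataFive.orbB) (matF s A) → Pres (vecSet s 5 DataFive.orbB)
        (matF s (l.foldl (fun A g => mulM 2 A (DataFive.ngen g)) A))) ∧
      (matF s (l.foldl (fun A g => mulM 2 A (DataFive.ngen g)) A)).det = (matF s A).det := by
    intro l
    induction l with
    | nil => exact fun A => ⟨id, rfl⟩
    | cons i l ih =>
      intro A
      simp only [List.foldl_cons]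
      refine ⟨fun hA => (ih _).1 (by rw [matF_mul hs]; exact hA.mul (hgen i)), ?_⟩
      rw [(ih _).2, matF_mul hs, Matrix.det_mul, hgdet, mul_one]
  have hrep : ∀ k, Pres (vecSet s 5 DataFive.orbB) (matF s (DataFive.nrep k)) ∧
      (matF s (DataFive.nrep k)).det = 1 := by
    intro k
    obtain ⟨h1, h2⟩ := hfold (DataFive.nword k) (oneM 5)
    rw [matF_congr s (DataFive.nword_eq k)] at h1 h2
    rw [matF_one] at h1 h2
    exact ⟨h1 (Pres.one _), h2.trans Matrix.det_one⟩
  have hscal : Pres (vecSet s 5 DataFive.orbB) (toF s DataFive.w3 • (1 : Matrix (Fin 3) (Fin 3) F)) := by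
    have : matF s DataFive.sc = toF s DataFive.w3 • (1 : Matrix (Fin 3) (Fin 3) F) := by
      ext i j
      rcases eq_or_ne i j with rfl | hne
      · simp [matF, sc_scalar]
      · simp [matF, sc_scalar, hne, toF_zero]
    rw [← this, ← matF_congr s sc_word]
    simp only [matF_mul hs]
    exact ((hgen 0).mul (hgen 1)).mul (((hgen 0).mul (hgen 0)).mul ((hgen 1).mul (hgen 1)))
  exact ⟨hrep, hscal⟩

/-- Powers of the cube root of unity. -/
theorem w3_pow [CharP F 5] {s : F} (hs : Root σ (2 : ZMod 5) s) : ∀ k : ℕ, toF s DataFive.w3 ^ k = toF s (w3pow k) := by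
  intro k
  have h3 : toF s DataFive.w3 ^ 3 = 1 := by
    rw [pow_succ, sq, ← toF_mul hs, ← toF_mul hs, ← toF_one (p := 5) s]; congr 1
  rw [pow_eq_pow_mod k h3]
  have hlt := Nat.mod_lt k (show 3 > 0 by norm_num)
  simp only [w3pow]
  generalize k % 3 = r at hlt
  interval_cases r
  · simp [toF_one]
  · simp
  · simp [sq, toF_mul hs]

/-- Matrices commuting with the diagonal and cyclic generators are scalar. -/
theorem scalar_of_commute_heis [CharP F 5] {s : F} (hs : Root σ (2 : ZMod 5) s) {N : Matrix (Fin 3) (Fin 3) F}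
    (hNX : N * matF s (DataFive.heis DataFive.iX) = matF s (DataFive.heis DataFive.iX) * N)
    (hNC : N * matF s (DataFive.heis DataFive.iC) = matF s (DataFive.heis DataFive.iC) * N) :
    ∃ r : F, N = r • 1 := by
  have hoff : ∀ i j, i ≠ j → N i j = 0 := by
    intro i j hij
    have h := congrFun (congrFun hNX i) j
    rw [Matrix.mul_apply, Matrix.mul_apply,
      Finset.sum_eq_single j (fun l _ hl => by simp [matF, heis_X, hl, toF_zero])
        (fun h => absurd (Finset.mem_univ j) h),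
      Finset.sum_eq_single i (fun l _ hl => by simp [matF, heis_X, Ne.symm hl, toF_zero])
        (fun h => absurd (Finset.mem_univ i) h)] at h
    simp only [matF, Matrix.of_apply, heis_X, if_true] at h
    have hne : toF s (w3pow j.val) ≠ toF s (w3pow i.val) := fun e => hij
      ((by decide : ∀ i j : Fin 3, w3pow j.val = w3pow i.val → i = j) i j (toF_injective hs e))
    by_contra h0
    exact hne (mul_left_cancel₀ h0 (h.trans (mul_comm _ _)))
  have hstep : ∀ j : Fin 3, N (j + 1) (j + 1) = N j j := by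
    intro j
    have h := congrFun (congrFun hNC (j + 1)) j
    have e1 : ∀ l, l ≠ j + 1 → matF s (DataFive.heis DataFive.iC) l j = 0 := fun l hl => by
      simp [matF, heis_C, hl, toF_zero]
    rw [Matrix.mul_apply, Matrix.mul_apply,
      Finset.sum_eq_single (j + 1) (fun l _ hl => by rw [e1 l hl, mul_zero])
        (fun h => absurd (Finset.mem_univ _) h),
      Finset.sum_eq_single j (fun l _ hl => by rw [hoff l j hl, mul_zero])
        (fun h => absurd (Finset.mem_univ _) h)] at h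
    simpa [matF, heis_C, toF_one] using h
  refine ⟨N 0 0, Matrix.ext fun i j => ?_⟩
  rcases eq_or_ne i j with rfl | hne
  · rw [Matrix.smul_apply, Matrix.one_apply_eq, smul_eq_mul, mul_one]
    fin_cases i
    · rfl
    · exact hstep 0
    · exact (hstep 1).trans (hstep 0)
  · simp [hne, hoff i j hne]

/-- A frame in which a group of order 27 has its standard form. -/
theorem exists_heis_frame [CharP F 5] (D : UData 3 F 5 σ) {s : F} (hs : Root σ (2 : ZMod 5) s)
    {H R : Subgroup (GL (Fin 3) F)} (hH : Cfsg.Geo.IsMaximalIn (specialUnitary 3 F 5) H) (hRH : R ≤ H)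
    (hA : Cfsg.Geo.ActsAbsolutelyIrreducibly (Cfsg.Geo.matrixSet R))
    (hcard : Nat.card R = 27) (hc2 : ⁅R, R⁆ ≤ Cfsg.Geo.scalars (Fin 3) F) :
    ∃ g ∈ Cfsg.GU 3 F 5,
      (∀ x ∈ R, ∃ i, ((g * x * g⁻¹ : GL (Fin 3) F) : Matrix (Fin 3) (Fin 3) F) = matF s (DataFive.heis i)) ∧
      ∀ i, ∃ x ∈ R, ((g * x * g⁻¹ : GL (Fin 3) F) : Matrix (Fin 3) (Fin 3) F) = matF s (DataFive.heis i) := by
  classical
  haveI : Fact (Nat.Prime 3) := ⟨Nat.prime_three⟩
  have hf := D.unitary (n := 3)
  have hsq := isSesq_of_unitary hf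
  have hRS : R ≤ Cfsg.Geo.specialLinear (Fin 3) F := fun x hx => (hH.1.le (hRH hx)).2
  have hRG : R ≤ Cfsg.GU 3 F 5 := fun x hx => (hH.1.le (hRH hx)).1
  have hcube : ∀ c : F, c ^ 3 = 1 → ∃ k : ℕ, k < 3 ∧ c = toF s DataFive.w3 ^ k := by
    intro c hc
    rcases eq_of_cube_eq_one hs (w := DataFive.w3) (by decide) hc with rfl | rfl | rfl
    · exact ⟨0, by norm_num, (pow_zero _).symm⟩
    · exact ⟨1, by norm_num, (pow_one _).symm⟩
    · exact ⟨2, by norm_num, rfl⟩
  have hns : ∃ x ∈ R, x ∉ Cfsg.Geo.scalars (Fin 3) F := by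
    by_contra h
    push Not at h
    have hinj : Function.Injective (fun x : R => ((x : GL (Fin 3) F) : Matrix (Fin 3) (Fin 3) F) 0 0) := by
      intro x y hxy
      obtain ⟨c, -, hc⟩ := scalar_matrix (h x x.2)
      obtain ⟨e, -, he⟩ := scalar_matrix (h y y.2)
      have : c = e := by simpa [hc, he] using hxy
      exact Subtype.ext (Units.ext (by rw [hc, he, this]))
    have h1 : Nat.card R ≤ Nat.card F := Nat.card_le_card_of_injective _ hinj
    rw [hcard, Nat.card_eq_fintype_card, D.card] at h1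
    norm_num at h1
  obtain ⟨ω, b, hb⟩ := exists_heisenberg hA hRS (commutator_scalar_iff.mp hc2) (by decide) hns
  have hω : ω ^ 3 = 1 := hb.prim.pow_eq_one
  have hσω : σ ω = ω ^ 2 := by rw [D.conj, show 5 = 3 + 2 by norm_num, pow_add, hω, one_mul]
  -- orthogonality
  have horth : ∀ i j, i ≠ j → Cfsg.hermForm 3 F 5 (b i) (b j) = 0 := by
    intro i j hij
    obtain ⟨x, hx, hxb⟩ := hb.diag
    have h := mem_GU.mp (hRG hx) (b i) (b j)
    rw [hxb, hxb, hf.smul_left, hsq.smul_right, map_pow, hσω, ← mul_assoc, ← pow_mul, ← pow_add] at h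
    by_contra h0
    have h1 : ω ^ ((i : ℕ) + 2 * (j : ℕ)) = 1 := mul_right_cancel₀ h0 (by rw [h, one_mul])
    have h2 := (hb.prim.pow_eq_one_iff_dvd _).mp h1
    exact hij (Fin.ext (by omega))
  have hdiag : ∀ i, Cfsg.hermForm 3 F 5 (b i) (b i) ≠ 0 := by
    intro i h0
    obtain ⟨u, hu⟩ := hsq.left_ne (b i) (b.ne_zero i)
    apply hu
    rw [← b.sum_repr u, Fin.sum_univ_three]
    simp only [hsq.add_right, hsq.smul_right]
    fin_cases i <;> simp_all
  -- equal norms
  obtain ⟨y, hy, hshift⟩ : ∃ y ∈ R, ∀ (c : Fin 3 → F) (a : Fin 3),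
      (∀ i, (y : Matrix (Fin 3) (Fin 3) F) *ᵥ b i = c i • b (a + i)) → a ≠ 0 := by
    by_contra hcon
    push Not at hcon
    have hd : ∀ x ∈ R, ∃ c : Fin 3 → F, ∀ i, (x : Matrix (Fin 3) (Fin 3) F) *ᵥ b i = c i • b i := by
      intro x hx
      obtain ⟨c, a, hc, ha⟩ := hcon x hx
      exact ⟨c, fun i => by simpa [ha] using hc i⟩
    obtain ⟨x, hx, hxs⟩ := hns
    refine hxs (mem_scalars_of_commute hA fun z hz => ?_)
    obtain ⟨c, hc⟩ := hd x hx
    obtain ⟨e, he⟩ := hd z hz
    refine Units.ext (Matrix.toLin'.injective (b.ext fun i => ?_))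
    simp only [Units.val_mul, Matrix.toLin'_apply, ← mulVec_mulVec, hc, he, mulVec_smul, smul_smul, mul_comm]
  obtain ⟨cy, ay, hcy, hya⟩ := hb.monomial y hy
  have hay := hshift cy ay hya
  have hnormeq : ∀ i, Cfsg.hermForm 3 F 5 (b (ay + i)) (b (ay + i)) = Cfsg.hermForm 3 F 5 (b i) (b i) := by
    intro i
    have h := mem_GU.mp (hRG hy) (b i) (b i)
    rw [hya, hf.smul_left, hsq.smul_right, ← mul_assoc] at h
    obtain ⟨k, hk⟩ := hcy i
    rwa [hk, map_pow, hσω, ← mul_pow, ← pow_succ', hω, one_pow, one_mul] at h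
  have heq : ∀ i, Cfsg.hermForm 3 F 5 (b i) (b i) = Cfsg.hermForm 3 F 5 (b 0) (b 0) := by
    intro i
    have h0 := hnormeq 0
    have h1 := hnormeq ay
    rw [add_zero] at h0
    have hi : i = 0 ∨ i = ay ∨ i = ay + ay := by
      clear h0 h1 hshift hya hnormeq
      revert hay; revert ay i; decide
    rcases hi with rfl | rfl | rfl
    · rfl
    · exact h0
    · rw [h1, h0]
  obtain ⟨al, hal0, hal⟩ := exists_norm_eq D.ne_refl D.inv (inv_ne_zero (hdiag 0)) (by rw [map_inv₀, ← hf.herm])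
  obtain ⟨g, hg, hgh⟩ := exists_frame D (fun i => al • b i) (fun i j => by
    rw [hf.smul_left, hsq.smul_right, ← mul_assoc]
    rcases eq_or_ne i j with rfl | hne
    · rw [hal, heq i, inv_mul_cancel₀ (hdiag 0), if_pos rfl]
    · rw [horth i j hne, mul_zero, if_neg hne])
  -- the standard form of the elements
  obtain ⟨kω, -, hkω⟩ := hcube ω hω
  have hwpow := w3_pow hs
  have hstd : ∀ x ∈ R, ∃ i, ((g * x * g⁻¹ : GL (Fin 3) F) : Matrix (Fin 3) (Fin 3) F) = matF s (DataFive.heis i) := by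
    intro x hx
    obtain ⟨c, a, hc, hxb⟩ := hb.monomial x hx
    choose k hk using hc
    set x' := g * x * g⁻¹ with hx'
    have hx'S : x' ∈ specialUnitary 3 F 5 := by
      simpa [hx'] using conj_mem_su ((Cfsg.GU 3 F 5).inv_mem hg) x (hH.1.le (hRH hx))
    let e : Fin 3 → Fin 3 := fun i => Fin.ofNat 3 (kω * k i)
    have he : ∀ i, c i = toF s (w3pow (e i).val) := fun i => by
      rw [hk, hkω, ← pow_mul, hwpow]
      simp [e, w3pow, Fin.val_ofNat]
    have hcol : ∀ i r, (x' : Matrix (Fin 3) (Fin 3) F) r i = matF s (shiftMat a (e 0) (e 1) (e 2)) r i := by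
      intro i r
      rw [hx', hgh x i (a + i) (c i) (by rw [mulVec_smul, hxb, smul_comm])]
      rcases eq_or_ne r (a + i) with rfl | hne
      · rw [if_pos rfl, he]
        simp only [matF, Matrix.of_apply, shiftMat, if_true]
        fin_cases i <;> rfl
      · simp [matF, shiftMat, hne, toF_zero]
    have hx'M : (x' : Matrix (Fin 3) (Fin 3) F) = matF s (shiftMat a (e 0) (e 1) (e 2)) :=
      Matrix.ext fun r i => hcol i r
    have hd := mem_specialLinear.mp hx'S.2
    rw [hx'M, det_matF hs, ← toF_one (p := 5) s] at hd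
    have hsum : ∀ a k0 k1 k2 : Fin 3, detM 2 (shiftMat a k0 k1 k2) = (1, 0) → k0 + k1 + k2 = 0 := by decide +kernel
    obtain ⟨i, hi⟩ := exists_heis a (e 0) (e 1) (e 2) (hsum _ _ _ _ (toF_injective hs hd))
    exact ⟨i, by rw [hx'M]; exact matF_congr s hi⟩
  choose φ hφ using hstd
  have hφbij : Function.Bijective (fun x : R => φ x x.2) := by
    refine (Nat.bijective_iff_injective_and_card _).mpr ⟨fun x y h => Subtype.ext ?_, by rw [hcard, Nat.card_eq_fintype_card, Fintype.card_fin]⟩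
    have : g * (x : GL (Fin 3) F) * g⁻¹ = g * y * g⁻¹ := Units.ext (by
      rw [hφ x x.2, hφ y y.2]; simp only at h; rw [h])
    simpa using this
  exact ⟨g, hg, fun x hx => ⟨_, hφ x hx⟩, fun i => by
    obtain ⟨⟨x, hx⟩, rfl⟩ := hφbij.2 i
    exact ⟨x, hx, hφ x hx⟩⟩

theorem no_heisenberg_five [CharP F 5] (D : UData 3 F 5 σ) {H R : Subgroup (GL (Fin 3) F)}
    (hH : Cfsg.Geo.IsMaximalIn (specialUnitary 3 F 5) H) (hRH : R ≤ H)
    (hA : Cfsg.Geo.ActsAbsolutelyIrreducibly (Cfsg.Geo.matrixSet R))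
    (hcard : Nat.card R = 27) (hc2 : ⁅R, R⁆ ≤ Cfsg.Geo.scalars (Fin 3) F)
    (hnorm : H ≤ Cfsg.Geo.subgroupNormalizer R) : False := by
  classical
  obtain ⟨s, hs⟩ := exists_root D rfl (by decide) (d := (2 : ZMod 5)) (by decide)
  obtain ⟨g, hg, hφ, hsurj⟩ := exists_heis_frame D hs hH hRH hA hcard hc2
  obtain ⟨xX, hxX, hXm⟩ := hsurj DataFive.iX
  obtain ⟨xC, hxC, hCm⟩ := hsurj DataFive.iC
  obtain ⟨hrep, hscal⟩ := pres_normalizer hs
  have hwpow := w3_pow hs
  have hcube : ∀ c : F, c ^ 3 = 1 → ∃ k : ℕ, c = toF s DataFive.w3 ^ k := by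
    intro c hc
    rcases eq_of_cube_eq_one hs (w := DataFive.w3) (by decide) hc with rfl | rfl | rfl
    · exact ⟨0, (pow_zero _).symm⟩
    · exact ⟨1, (pow_one _).symm⟩
    · exact ⟨2, rfl⟩
  have hsmul : ∀ (c : Cx 5) (A : M3 5), matF s (fun r l => mulC 2 c (A r l)) = toF s c • matF s A := fun c A => by
    ext r l; simp [matF, toF_mul hs]
  obtain ⟨S, hS⟩ := exists_stabilizer (vecSet s 5 DataFive.orbB)
  have hk : ∀ {A : M3 5}, keeps 2 DataFive.orbB DataFive.mskB A = true →
      Pres (vecSet s 5 DataFive.orbB) (matF s A) := fun h =>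
    pres_of_keeps hs DataFive.orbB_lt DataFive.orbB_sub DataFive.mskB_eq h
  obtain ⟨z, hz, hzA⟩ := exists_su hs D DataFive.g10_ok.1 DataFive.g10_ok.2.1
  obtain ⟨t, ht, htA⟩ := exists_su hs D DataFive.t0_ok.1 DataFive.t0_ok.2.1
  have himg : ∀ h ∈ H, ∀ x ∈ R, ∃ i, (((g * h * g⁻¹) * (g * x * g⁻¹) * (g * h * g⁻¹)⁻¹ : GL (Fin 3) F) :
      Matrix (Fin 3) (Fin 3) F) = matF s (DataFive.heis i) := by
    intro h hh x hx
    rw [show g * h * g⁻¹ * (g * x * g⁻¹) * (g * h * g⁻¹)⁻¹ = g * (h * x * h⁻¹) * g⁻¹ by group]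
    exact hφ _ ((Subgroup.mem_normalizer_iff.mp (hnorm hh) x).mp hx)
  refine no_overgroup hH (S := S) (g := g) (conj_mem_su hg) (fun h hh => (hS _).mpr ?_) hz
    ((hS z).mpr (hzA ▸ hk DataFive.g10_ok.2.2)) (fun hzH => ?_) ht (fun htS => ?_)
  · obtain ⟨a, hha⟩ := himg h hh xX hxX
    obtain ⟨c, hhc⟩ := himg h hh xC hxC
    set h' := g * h * g⁻¹ with hh'
    have hh'S : h' ∈ specialUnitary 3 F 5 := by
      simpa [hh'] using conj_mem_su ((Cfsg.GU 3 F 5).inv_mem hg) h (hH.1.le hh)
    set Mh := (h' : Matrix (Fin 3) (Fin 3) F)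
    set Mi := ((h'⁻¹ : GL (Fin 3) F) : Matrix (Fin 3) (Fin 3) F)
    have hMi : Mh * Mi = 1 := h'.mul_inv
    have hiM : Mi * Mh = 1 := h'.inv_mul
    rw [Units.val_mul, Units.val_mul, hXm] at hha
    rw [Units.val_mul, Units.val_mul, hCm] at hhc
    have hrel : ∀ r l, mulM 2 (DataFive.heis a) (DataFive.heis c) r l =
        mulC 2 DataFive.w3 (mulM 2 (DataFive.heis c) (DataFive.heis a) r l) := by
      refine matF_injective hs ?_
      rw [hsmul, matF_mul hs, matF_mul hs, ← hha, ← hhc]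
      calc Mh * matF s (DataFive.heis DataFive.iX) * Mi * (Mh * matF s (DataFive.heis DataFive.iC) * Mi)
          = Mh * (matF s (DataFive.heis DataFive.iX) * matF s (DataFive.heis DataFive.iC)) * Mi := by
            simp only [mul_assoc]; rw [← mul_assoc Mi Mh, hiM, one_mul]
        _ = toF s DataFive.w3 •
              (Mh * (matF s (DataFive.heis DataFive.iC) * matF s (DataFive.heis DataFive.iX)) * Mi) := by
            rw [← matF_mul hs, matF_congr s heis_comm, hsmul, matF_mul hs, mul_smul_comm, smul_mul_assoc]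
        _ = _ := by
            congr 1
            simp only [mul_assoc]; rw [← mul_assoc Mi Mh, hiM, one_mul]
    obtain ⟨hTX, hTC⟩ := DataFive.ntab_ok a c hrel
    set T := matF s (DataFive.tmat a c) with hT
    set N := Mi * T with hN
    have hTX' : T * matF s (DataFive.heis DataFive.iX) = matF s (DataFive.heis a) * T := by
      rw [hT, ← matF_mul hs, ← matF_mul hs]; exact matF_congr s hTX
    have hTC' : T * matF s (DataFive.heis DataFive.iC) = matF s (DataFive.heis c) * T := by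
      rw [hT, ← matF_mul hs, ← matF_mul hs]; exact matF_congr s hTC
    have hNc : ∀ Y Z, T * Y = Z * T → Mh * Y * Mi = Z → N * Y = Y * N := by
      intro Y Z h1 h2
      rw [hN, mul_assoc, h1, ← h2]
      simp only [← mul_assoc]; rw [hiM, one_mul]
    have hNX := hNc _ _ hTX' hha
    have hNC := hNc _ _ hTC' hhc
    obtain ⟨r, hNr⟩ := scalar_of_commute_heis hs hNX hNC
    have hTM : T = r • Mh := by
      calc T = Mh * N := by rw [hN, ← mul_assoc, hMi, one_mul]
        _ = r • Mh := by rw [hNr, mul_smul_comm, mul_one]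
    -- split off the diagonal part
    set e := (DataFive.ntab.getD (27 * a.val + c.val) 0) % 3 with he
    have hE : T = matF s DataFive.dE ^ e * matF s (DataFive.nrep (DataFive.trep a c)) := by
      rw [hT, DataFive.tmat, matF_mul hs, ← he]
      congr 1
      have hlt : e < 3 := Nat.mod_lt _ (by norm_num)
      interval_cases e
      · simp [matF_one]
      · simp
      · simp [sq, matF_mul hs]
    have hdT : r ^ 3 = toF s DataFive.w3 ^ e := by
      have h := congrArg Matrix.det hTM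
      rw [hE, Matrix.det_mul, Matrix.det_pow, (hrep _).2, det_matF hs, dE_det, mul_one, Matrix.det_smul,
        Fintype.card_fin, mem_specialLinear.mp hh'S.2, mul_one] at h
      exact h.symm
    have hr0 : r ≠ 0 := fun h0 => by
      rw [h0, zero_pow (by norm_num), hwpow, ← toF_zero (p := 5) s] at hdT
      have := toF_injective hs hdT
      have hne : ∀ k : Fin 3, w3pow k.val ≠ 0 := by decide
      exact hne ⟨e, Nat.mod_lt _ (by norm_num)⟩ this.symm
    have he0 : e = 0 := by
      have h24 := FiniteField.pow_card_sub_one_eq_one r hr0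
      rw [D.card, show 5 ^ 2 - 1 = 3 * 8 by norm_num, pow_mul, hdT, ← pow_mul, hwpow, ← toF_one (p := 5) s] at h24
      have hall : ∀ k : Fin 3, w3pow (k.val * 8) = (1, 0) → k = 0 := by decide
      exact congrArg Fin.val (hall ⟨e, Nat.mod_lt _ (by norm_num)⟩ (toF_injective hs h24))
    rw [he0, pow_zero] at hdT
    rw [he0, pow_zero, one_mul] at hE
    have hr3 : r⁻¹ ^ 3 = 1 := by rw [inv_pow, hdT, inv_one]
    obtain ⟨k, hkr⟩ := hcube _ hr3
    have hMh : Mh = toF s DataFive.w3 ^ k • (1 : Matrix (Fin 3) (Fin 3) F) * matF s (DataFive.nrep (DataFive.trep a c)) := by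
      rw [smul_mul_assoc, one_mul, ← hkr, ← hE, hTM, smul_smul, inv_mul_cancel₀ hr0, one_smul]
    show Pres _ Mh
    rw [hMh, show toF s DataFive.w3 ^ k • (1 : Matrix (Fin 3) (Fin 3) F) = (toF s DataFive.w3 • (1 : Matrix (Fin 3) (Fin 3) F)) ^ k by
      rw [smul_pow, one_pow]]
    exact (hscal.pow k).mul (hrep _).1
  · obtain ⟨a, ha⟩ := himg _ hzH xX hxX
    rw [show g * (g⁻¹ * z * g) * g⁻¹ = z by group, Units.val_mul, Units.val_mul, hzA, hXm] at ha
    obtain ⟨i, j, hij⟩ := DataFive.g10_not a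
    refine hij (matF_injective hs ?_ i j)
    rw [matF_mul hs, matF_mul hs, ← ha]
    rw [mul_assoc, show ((z⁻¹ : GL (Fin 3) F) : Matrix (Fin 3) (Fin 3) F) * matF s DataFive.g10 = 1 from
      hzA ▸ z.inv_mul, mul_one]
  · exact not_pres_of_keeps hs DataFive.orbB_lt DataFive.orbB_sub DataFive.mskB_eq DataFive.t0_ok.2.2.2
      (htA ▸ (hS t).mp htS)

end CfsgLib.GeoPrime.Three
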