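import Mathlib
import Cfsg.Agent.GeoPrime.Three.General

/-!
The stabiliser of three orthogonal lines.
-/

set_option autoImplicit false

namespace CfsgLib.GeoPrime.Three

open Matrix

variable {F : Type*} [Field F] [Fintype F] {q : ℕ} {σ : F ≃+* F}

/-- A subgroup stabilising three orthogonal lines is their stabiliser. -/
theorem lines_case (D : UData 3 F q σ) (hq : 3 ≤ q) {H : Subgroup (GL (Fin 3) F)}
    (hH : Cfsg.Geo.IsMaximalIn (specialUnitary 3 F q) H) (b : Module.Basis (Fin 3) F (Fin 3 → F))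
    (horth : ∀ i j, i ≠ j → Cfsg.hermForm 3 F q (b i) (b j) = 0)
    (hdiag : ∀ i, Cfsg.hermForm 3 F q (b i) (b i) ≠ 0)
    (hle : H ≤ Cfsg.Geo.decompositionStabilizer (basisLines b)) :
    ∃ L : Fin 3 → Submodule F (Fin 3 → F), Cfsg.Geo.IsNondegenerateMDecomposition (Cfsg.hermForm 3 F q) 1 L ∧
      H = Cfsg.Geo.decompositionStabilizer L ⊓ specialUnitary 3 F q := by
  have hf := D.unitary (n := 3)
  refine ⟨basisLines b, ⟨isMDecomposition_basisLines (by omega) b, fun i w hw hw0 => ?_, ?_⟩,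
    eq_inf_of_maximal hH hle (su3_not_le_decompositionStabilizer D hq b horth hdiag)⟩
  · obtain ⟨c, rfl⟩ := Submodule.mem_span_singleton.mp hw
    have hc : c ≠ 0 := fun h => hw0 (by rw [h, zero_smul])
    exact ⟨⟨b i, Submodule.mem_span_singleton_self _, by
        rw [(isSesq_of_unitary hf).smul_right]; exact mul_ne_zero ((map_ne_zero σ).mpr hc) (hdiag i)⟩,
      ⟨b i, Submodule.mem_span_singleton_self _, by rw [hf.smul_left]; exact mul_ne_zero hc (hdiag i)⟩⟩
  · intro i j hij u hu v hv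
    obtain ⟨c, rfl⟩ := Submodule.mem_span_singleton.mp hu
    obtain ⟨d, rfl⟩ := Submodule.mem_span_singleton.mp hv
    rw [hf.smul_left, (isSesq_of_unitary hf).smul_right, horth i j hij, mul_zero, mul_zero]

/-- A subgroup monomial in an orthonormal frame stabilises three orthogonal lines. -/
theorem exists_lines_of_monomial (D : UData 3 F q σ) {g : GL (Fin 3) F} (hg : g ∈ Cfsg.GU 3 F q)
    {H : Subgroup (GL (Fin 3) F)}
    (hmon : ∀ h ∈ H, ∀ i, ∃ j, ∀ k, k ≠ j → ((g * h * g⁻¹ : GL (Fin 3) F) : Matrix (Fin 3) (Fin 3) F) k i = 0) :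
    ∃ b : Module.Basis (Fin 3) F (Fin 3 → F), (∀ i j, i ≠ j → Cfsg.hermForm 3 F q (b i) (b j) = 0) ∧
      (∀ i, Cfsg.hermForm 3 F q (b i) (b i) ≠ 0) ∧ H ≤ Cfsg.Geo.decompositionStabilizer (basisLines b) := by
  classical
  set gi : Matrix (Fin 3) (Fin 3) F := ((g⁻¹ : GL (Fin 3) F) : Matrix (Fin 3) (Fin 3) F)
  obtain ⟨e, he⟩ : ∃ e : (Fin 3 → F) ≃ₗ[F] (Fin 3 → F), ∀ v, e v = gi *ᵥ v :=
    ⟨LinearEquiv.ofBijective (Matrix.toLin' gi)
      ⟨fun u v h => gl_inj g⁻¹ (by simpa [gi] using h),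
        fun v => ⟨(g : Matrix (Fin 3) (Fin 3) F) *ᵥ v, by simp [gi, gl_inv_mulVec]⟩⟩, fun v => rfl⟩
  set b := (Pi.basisFun F (Fin 3)).map e
  have hb : ∀ i, b i = gi *ᵥ Pi.single i 1 := fun i => by simp [b, he]
  have hform : ∀ i j, Cfsg.hermForm 3 F q (b i) (b j) = if i = j then 1 else 0 := by
    intro i j
    rw [hb, hb, mem_GU.mp ((Cfsg.GU 3 F q).inv_mem hg), herm_dot D]
    rcases eq_or_ne i j with rfl | hne
    · simp
    · simp [hne]
  refine ⟨b, fun i j hij => by rw [hform, if_neg hij], fun i => by rw [hform, if_pos rfl]; exact one_ne_zero,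
    fun h hh => ?_⟩
  set M := ((g * h * g⁻¹ : GL (Fin 3) F) : Matrix (Fin 3) (Fin 3) F)
  choose π hπ using hmon h hh
  have hcol : ∀ i, M *ᵥ Pi.single i 1 = M (π i) i • Pi.single (π i) 1 := by
    intro i
    funext k
    rcases eq_or_ne k (π i) with rfl | hne
    · simp
    · rw [show (M *ᵥ Pi.single i 1) k = M k i by simp, show M k i = 0 from hπ i k hne]
      simp [hne]
  have hne : ∀ i, M (π i) i ≠ 0 := fun i h0 => by
    have h1 : M *ᵥ Pi.single i (1 : F) = M *ᵥ 0 := by rw [hcol, h0, zero_smul, mulVec_zero]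
    simpa using congrFun (gl_inj _ h1) i
  have hinj : Function.Injective π := by
    intro i j hij
    by_contra hne'
    have h1 : M *ᵥ (M (π j) j • Pi.single i (1 : F)) = M *ᵥ (M (π i) i • Pi.single j (1 : F)) := by
      rw [mulVec_smul, mulVec_smul, hcol, hcol, hij, smul_smul, smul_smul, mul_comm]
    have h2 := congrFun (gl_inj _ h1) i
    simp [hne'] at h2
    exact hne j h2
  refine mem_decompositionStabilizer.mpr ⟨Equiv.ofBijective π (Finite.injective_iff_bijective.mp hinj), fun i => ?_⟩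
  show (Submodule.span F {b i}).map _ = Submodule.span F {b (π i)}
  rw [Submodule.map_span, Set.image_singleton]
  have hhb : Matrix.toLin' (h : Matrix (Fin 3) (Fin 3) F) (b i) = M (π i) i • b (π i) := by
    rw [Matrix.toLin'_apply, hb, hb, ← mulVec_smul, ← hcol]
    simp only [M, gi, Units.val_mul, ← mulVec_mulVec, gl_inv_mulVec]
  rw [hhb, Submodule.span_singleton_smul_eq (isUnit_iff_ne_zero.mpr (hne i))]

end CfsgLib.GeoPrime.Three
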