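import Mathlib
import Cfsg.Agent.GeoPrime.Three.General

/-!
Normalisers of cubic fields whose norm one part is a multiple of a cyclic group of order seven.
-/

set_option autoImplicit false

namespace CfsgLib.GeoPrime.Three

open Matrix

variable {F : Type*} [Field F] [Fintype F] {q : ℕ} {σ : F ≃+* F}

/-- Matrices commuting with a cyclic one are polynomials in it. -/
theorem eq_sum_of_commute {X W B C : Matrix (Fin 3) (Fin 3) F}
    (hB : ∀ r c : Fin 3, B r c = (X ^ (c : ℕ)) r 0) (hBC : B * C = 1) (hWX : W * X = X * W) :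
    ∃ co : Fin 3 → F, W = ∑ c : Fin 3, co c • X ^ (c : ℕ) := by
  set e0 : Fin 3 → F := Pi.single 0 1
  have hcol : ∀ c : Fin 3, (X ^ (c : ℕ)) *ᵥ e0 = fun r => B r c := fun c => by
    funext r; simp [e0, hB]
  set co := C *ᵥ (W *ᵥ e0)
  refine ⟨co, ?_⟩
  set R := ∑ c : Fin 3, co c • X ^ (c : ℕ) with hR
  have hRX : R * X = X * R := by
    simp only [hR, Finset.sum_mul, Finset.mul_sum, smul_mul_assoc, mul_smul_comm, ← pow_succ, ← pow_succ']
  have he : R *ᵥ e0 = W *ᵥ e0 := by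
    have h2 : B *ᵥ co = W *ᵥ e0 := by rw [mulVec_mulVec, hBC, one_mulVec]
    rw [← h2, hR, sum_mulVec]
    funext r
    simp [smul_mulVec, hcol, Matrix.mulVec, dotProduct, mul_comm, Finset.sum_apply]
  have hRB : R * B = W * B := by
    ext r c
    have h : R *ᵥ (fun r => B r c) = W *ᵥ (fun r => B r c) := by
      rw [← hcol, mulVec_mulVec, mulVec_mulVec, (Commute.pow_right (hRX : Commute R X) _).eq,
        (Commute.pow_right (hWX : Commute W X) _).eq, ← mulVec_mulVec, ← mulVec_mulVec, he]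
    exact congrFun h r
  calc W = W * B * C := by rw [mul_assoc, hBC, mul_one]
    _ = R := by rw [← hRB, mul_assoc, hBC, mul_one]

/-- The data of a group of order 21 in an overgroup. -/
structure SevenData (F : Type*) [Field F] [Fintype F] (q : ℕ) (S : Subgroup (GL (Fin 3) F))
    (x0 y0 z0 t : GL (Fin 3) F) : Prop where
  x_su : x0 ∈ specialUnitary 3 F q
  y_su : y0 ∈ specialUnitary 3 F q
  z_su : z0 ∈ specialUnitary 3 F q
  t_su : t ∈ specialUnitary 3 F q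
  x_mem : x0 ∈ S
  y_mem : y0 ∈ S
  z_mem : z0 ∈ S
  t_mem : t ∉ S
  scalar_mem : ∀ z ∈ specialUnitary 3 F q, z ∈ Cfsg.Geo.scalars (Fin 3) F → z ∈ S
  order : orderOf x0 = 7
  conj : y0 * x0 * y0⁻¹ = x0 ^ 2
  not_conj : ∀ a : ℕ, z0 * x0 * z0⁻¹ ≠ x0 ^ a
  trace : ∀ a : ℕ, ((x0 ^ a : GL (Fin 3) F) : Matrix (Fin 3) (Fin 3) F).trace =
    (x0 : Matrix (Fin 3) (Fin 3) F).trace → a % 7 = 1 ∨ a % 7 = 2 ∨ a % 7 = 4
  cyclic : ∃ B C : Matrix (Fin 3) (Fin 3) F,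
    (∀ r c : Fin 3, B r c = ((x0 : Matrix (Fin 3) (Fin 3) F) ^ (c : ℕ)) r 0) ∧ B * C = 1

theorem conj_pow' {G : Type*} [Group G] (g x : G) (n : ℕ) : g * x ^ n * g⁻¹ = (g * x * g⁻¹) ^ n :=
  (conj_pow).symm

theorem no_singer_case (D : UData 3 F q σ) (hr : ¬ 7 ^ 2 ∣ Nat.card (GL (Fin 3) F))
    {H : Subgroup (GL (Fin 3) F)} (hH : Cfsg.Geo.IsMaximalIn (specialUnitary 3 F q) H)
    {K : Subalgebra F (Matrix (Fin 3) (Fin 3) F)} (hK : Cfsg.Geo.IsFieldSubalgebra 3 K)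
    (hnorm : H ≤ Cfsg.Geo.subalgebraNormalizer K)
    (hseven : ∀ w ∈ specialUnitary 3 F q, (w : Matrix (Fin 3) (Fin 3) F) ∈ K → w ^ 7 ∈ Cfsg.Geo.scalars (Fin 3) F)
    (hscal : ∀ w ∈ specialUnitary 3 F q, w ∈ Cfsg.Geo.scalars (Fin 3) F → w ^ 3 = 1)
    {x : GL (Fin 3) F} (hxH : x ∈ H) (hxs : x ∉ Cfsg.Geo.scalars (Fin 3) F)
    (hxK : (x : Matrix (Fin 3) (Fin 3) F) ∈ K)
    {S : Subgroup (GL (Fin 3) F)} {x0 y0 z0 t : GL (Fin 3) F} (d : SevenData F q S x0 y0 z0 t) : False := by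
  classical
  haveI : Fact (Nat.Prime 7) := ⟨by norm_num⟩
  have hxG := hH.1.le hxH
  have hsplit : ∀ w ∈ specialUnitary 3 F q, (w : Matrix (Fin 3) (Fin 3) F) ∈ K →
      (w ^ 15) ^ 7 = 1 ∧ w = w ^ 15 * (w ^ 7) ^ (-2 : ℤ) ∧ (w ^ 7) ^ (-2 : ℤ) ∈ Cfsg.Geo.scalars (Fin 3) F := by
    intro w hw hwK
    have h7 := hseven w hw hwK
    have h3 := hscal _ ((specialUnitary 3 F q).pow_mem hw 7) h7
    refine ⟨?_, ?_, (Cfsg.Geo.scalars (Fin 3) F).zpow_mem h7 _⟩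
    · rw [← pow_mul, show 15 * 7 = 7 * (3 * 5) by norm_num, pow_mul, pow_mul, h3, one_pow]
    · group
  set y := x ^ 15 with hy
  obtain ⟨hy7, hxy, hsc⟩ := hsplit x hxG hxK
  have hyo : orderOf y = 7 := orderOf_eq_prime hy7 fun h1 => hxs (by
    rw [hxy, ← hy, h1, one_mul]; exact hsc)
  have hyG : y ∈ specialUnitary 3 F q := (specialUnitary 3 F q).pow_mem hxG _
  have hyK : (y : Matrix (Fin 3) (Fin 3) F) ∈ K := by
    rw [hy, Units.val_pow_eq_pow_val]; exact K.pow_mem hxK _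
  have hpowK : ∀ z ∈ Subgroup.zpowers y, (z : Matrix (Fin 3) (Fin 3) F) ∈ K := by
    intro z hz
    rw [← mem_powers_iff_mem_zpowers] at hz
    obtain ⟨a, rfl⟩ := hz
    show ((y ^ a : GL (Fin 3) F) : Matrix (Fin 3) (Fin 3) F) ∈ K
    rw [Units.val_pow_eq_pow_val]; exact K.pow_mem hyK _
  have hconj : ∀ h ∈ H, ∀ z ∈ Subgroup.zpowers y, h * z * h⁻¹ ∈ Subgroup.zpowers y := by
    intro h hh z hz
    have hzK : ((h * z * h⁻¹ : GL (Fin 3) F) : Matrix (Fin 3) (Fin 3) F) ∈ K := by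
      rw [Units.val_mul, Units.val_mul]
      exact ((hnorm hh) _).mp (hpowK z hz)
    refine mem_zpowers_of_commute hr hyo ?_ (Units.ext ?_)
    · rw [← conj_pow']
      obtain ⟨a, rfl⟩ := Subgroup.mem_zpowers_iff.mp hz
      rw [← zpow_natCast (y ^ a), ← _root_.zpow_mul, mul_comm, _root_.zpow_mul, zpow_natCast, hy7, _root_.one_zpow, mul_one,
        mul_inv_cancel]
    · rw [Units.val_mul, Units.val_mul (h * z * h⁻¹) y]
      exact hK.comm _ hyK _ hzK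
  obtain ⟨g, hgS, hg⟩ := exists_conj_zpowers hr hyG d.x_su hyo d.order
  have hx0y : g⁻¹ * x0 * g ∈ Subgroup.zpowers y :=
    (hg _).mpr (by simpa [mul_assoc] using Subgroup.mem_zpowers x0)
  refine no_overgroup hH (S := S) (g := g) (conj_mem hgS) (fun h hh => ?_) d.z_su d.z_mem (fun hzH => ?_)
    d.t_su d.t_mem
  · set h' := g * h * g⁻¹ with hh'
    have h1 : h' * x0 * h'⁻¹ ∈ Subgroup.zpowers x0 := by
      have := (hg _).mp (hconj h hh _ hx0y)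
      simpa [hh', mul_assoc] using this
    rw [← mem_powers_iff_mem_zpowers] at h1
    obtain ⟨a, ha⟩ := h1
    change x0 ^ a = h' * x0 * h'⁻¹ at ha
    have htr := d.trace a (by
      rw [ha, Units.val_mul, Units.val_mul, trace_mul_cycle, ← Units.val_mul, inv_mul_cancel, Units.val_one,
        one_mul])
    have hy : ∀ m : ℕ, y0 ^ m * x0 * (y0 ^ m)⁻¹ = x0 ^ 2 ^ m := by
      intro m
      induction m with
      | zero => simp
      | succ m ih =>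
        rw [pow_succ', _root_.mul_inv_rev, show y0 * y0 ^ m * x0 * ((y0 ^ m)⁻¹ * y0⁻¹) =
          y0 * (y0 ^ m * x0 * (y0 ^ m)⁻¹) * y0⁻¹ by group, ih, conj_pow', d.conj, ← pow_mul, ← pow_succ']
    obtain ⟨m, hm⟩ : ∃ m : ℕ, (2 ^ m) % 7 = a % 7 := by
      rcases htr with h | h | h <;> rw [h]
      exacts [⟨0, rfl⟩, ⟨1, rfl⟩, ⟨2, rfl⟩]
    set w := (y0 ^ m)⁻¹ * h' with hw
    have hwc : w * x0 * w⁻¹ = x0 := by
      rw [hw, show (y0 ^ m)⁻¹ * h' * x0 * ((y0 ^ m)⁻¹ * h')⁻¹ = (y0 ^ m)⁻¹ * (h' * x0 * h'⁻¹) * y0 ^ m by group,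
        ← ha, ← pow_mod_orderOf x0 a, d.order, ← hm, ← d.order, pow_mod_orderOf, ← hy m]
      group
    have hwS : w ∈ specialUnitary 3 F q :=
      mul_mem (inv_mem (pow_mem d.y_su m)) (mul_mem (mul_mem hgS (hH.1.le hh)) (inv_mem hgS))
    have hcomm : (w : Matrix (Fin 3) (Fin 3) F) * x0 = (x0 : Matrix (Fin 3) (Fin 3) F) * w := by
      rw [← Units.val_mul, ← Units.val_mul, ← mul_inv_eq_iff_eq_mul.mp hwc]
    obtain ⟨B, C, hB, hBC⟩ := d.cyclic
    obtain ⟨co, hco⟩ := eq_sum_of_commute hB hBC hcomm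
    have hwK : ((g⁻¹ * w * g : GL (Fin 3) F) : Matrix (Fin 3) (Fin 3) F) ∈ K := by
      rw [Units.val_mul, Units.val_mul, hco, Finset.mul_sum, Finset.sum_mul]
      refine K.sum_mem fun c _ => ?_
      rw [mul_smul_comm, smul_mul_assoc]
      refine K.smul_mem ?_ _
      have h2 := hpowK _ (Subgroup.pow_mem _ hx0y (c : ℕ))
      rw [show (g⁻¹ * x0 * g) ^ (c : ℕ) = g⁻¹ * x0 ^ (c : ℕ) * g by
        simpa using (conj_pow' g⁻¹ x0 (c : ℕ)).symm] at h2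
      simpa using h2
    obtain ⟨hw7, hwsplit, hwsc⟩ := hsplit _ (mul_mem (mul_mem (inv_mem hgS) hwS) hgS) hwK
    have hz : (g⁻¹ * w * g) ^ 15 ∈ Subgroup.zpowers y := by
      refine mem_zpowers_of_commute hr hyo hw7 (Units.ext ?_)
      rw [Units.val_mul, Units.val_mul ((g⁻¹ * w * g) ^ 15) y, Units.val_pow_eq_pow_val]
      exact hK.comm _ hyK _ (K.pow_mem hwK _)
    have e15 : g * (g⁻¹ * w * g) ^ 15 * g⁻¹ = w ^ 15 := by rw [conj_pow']; group
    have e7 : (g * (g⁻¹ * w * g) * g⁻¹) = w := by group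
    have hw15 := (hg _).mp hz
    rw [e15] at hw15
    obtain ⟨hw7', hwsplit', -⟩ : (w ^ 15) ^ 7 = 1 ∧ w = w ^ 15 * (w ^ 7) ^ (-2 : ℤ) ∧ True :=
      ⟨by rw [← e15, ← conj_pow', hw7, mul_one, mul_inv_cancel], by group, trivial⟩
    have hw7s : (w ^ 7) ^ (-2 : ℤ) ∈ S := by
      refine S.zpow_mem (d.scalar_mem _ ((specialUnitary 3 F q).pow_mem hwS 7) ?_) _
      have hs7 := hseven _ (mul_mem (mul_mem (inv_mem hgS) hwS) hgS) hwK
      obtain ⟨c, hc⟩ := (Cfsg.Geo.mem_scalars_iff _).mp hs7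
      refine (Cfsg.Geo.mem_scalars_iff _).mpr ⟨c, ?_⟩
      conv_lhs => rw [← e7, ← conj_pow', Units.val_mul, Units.val_mul, hc]
      rw [mul_smul_comm, mul_one, smul_mul_assoc, ← Units.val_mul, mul_inv_cancel, Units.val_one]
    have hh'' : h' = y0 ^ m * w := by rw [hw, mul_inv_cancel_left]
    rw [hh'', hwsplit']
    refine S.mul_mem (S.pow_mem d.y_mem m) (S.mul_mem ?_ hw7s)
    obtain ⟨j, hj⟩ := Subgroup.mem_zpowers_iff.mp hw15
    exact hj ▸ S.zpow_mem d.x_mem j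
  · have h1 := (hg _).mp (hconj _ hzH _ hx0y)
    have h2 : z0 * x0 * z0⁻¹ ∈ Subgroup.zpowers x0 := by simpa [mul_assoc] using h1
    rw [← mem_powers_iff_mem_zpowers] at h2
    obtain ⟨a, ha⟩ := h2
    exact d.not_conj a ha.symm

end CfsgLib.GeoPrime.Three
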