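import Mathlib
import Cfsg.Agent.GeoPrime.Three.Singer
import Cfsg.Agent.GeoPrime.Three.Pres
import Cfsg.Agent.GeoPrime.Three.DataThree
import Cfsg.Agent.GeoPrime.Three.DataFive

/-!
No cubic field normaliser is maximal in SU(3,3) and in SU(3,5).
-/

set_option autoImplicit false

namespace CfsgLib.GeoPrime.Three

open Matrix

local instance factThree' : Fact (Nat.Prime 3) := ⟨Nat.prime_three⟩

local instance factFive' : Fact (Nat.Prime 5) := ⟨by norm_num⟩

variable {F : Type*} [Field F] [Fintype F] {q : ℕ} {σ : F ≃+* F}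

theorem exists_sevenData {p : ℕ} [Fact p.Prime] [CharP F p] {d : ZMod p} {s : F} (D : UData 3 F q σ)
    (hs : Root σ d s) {L : List ℕ} {mask : ℕ} (hlt : L.all (fun c => decide (c < (p * p) ^ 3)) = true)
    (hsub : L.all (fun c => Nat.testBit mask c) = true) (heq : mask = L.foldr (fun c m => 2 ^ c ||| m) 0)
    {pw : Fin 7 → M3 p} {y0 z0 ci t0 : M3 p} (p0 : ∀ i j, pw 0 i j = oneM p i j)
    (psucc : ∀ (a : Fin 7) i j, mulM d (pw a) (pw 1) i j = pw (a + 1) i j)
    (xu : ∀ i j, mulM d (starM (pw 1)) (pw 1) i j = oneM p i j)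
    (yu : ∀ i j, mulM d (starM y0) y0 i j = oneM p i j) (zu : ∀ i j, mulM d (starM z0) z0 i j = oneM p i j)
    (tu : ∀ i j, mulM d (starM t0) t0 i j = oneM p i j)
    (xd : detM d (pw 1) = (1, 0)) (yd : detM d y0 = (1, 0)) (zd : detM d z0 = (1, 0)) (td : detM d t0 = (1, 0))
    (xne : ∃ i j, pw 1 i j ≠ oneM p i j) (yconj : ∀ i j, mulM d y0 (pw 1) i j = mulM d (pw 2) y0 i j)
    (znot : ∀ a, ∃ i j, mulM d z0 (pw 1) i j ≠ mulM d (pw a) z0 i j)
    (hci : ∀ i j, mulM d (fun r c => pw (c.castLE (by decide)) r 0) ci i j = oneM p i j)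
    (htr : ∀ a : Fin 7, pw a 0 0 + pw a 1 1 + pw a 2 2 = pw 1 0 0 + pw 1 1 1 + pw 1 2 2 → a = 1 ∨ a = 2 ∨ a = 4)
    (xk : keeps d L mask (pw 1) = true) (yk : keeps d L mask y0 = true) (zk : keeps d L mask z0 = true)
    (tk : keeps d L mask t0 = false)
    (hscal : ∀ c : F, c ^ 3 = 1 → Pres (vecSet s p L) (c • (1 : Matrix (Fin 3) (Fin 3) F))) :
    ∃ (S : Subgroup (GL (Fin 3) F)) (x y z t : GL (Fin 3) F), SevenData F q S x y z t := by
  obtain ⟨S, hS⟩ := exists_stabilizer (vecSet s p L)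
  obtain ⟨x, hx, hxA⟩ := exists_su hs D xu xd
  obtain ⟨y, hy, hyA⟩ := exists_su hs D yu yd
  obtain ⟨z, hz, hzA⟩ := exists_su hs D zu zd
  obtain ⟨t, ht, htA⟩ := exists_su hs D tu td
  have hpow : ∀ a : ℕ, ((x ^ a : GL (Fin 3) F) : Matrix (Fin 3) (Fin 3) F) = matF s (pw (Fin.ofNat 7 a)) := by
    intro a
    induction a with
    | zero =>
      rw [pow_zero, Units.val_one, ← matF_one (p := p) s]
      exact (matF_congr s p0).symm
    | succ a ih =>
      rw [pow_succ, Units.val_mul, ih, hxA, ← matF_mul hs, matF_congr s (psucc _)]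
      congr 2
      exact Fin.ext (by simp [Fin.val_add])
  have hxo : orderOf x = 7 := by
    haveI : Fact (Nat.Prime 7) := ⟨by norm_num⟩
    refine orderOf_eq_prime (Units.ext ?_) fun h => ?_
    · rw [hpow, Units.val_one, ← matF_one (p := p) s]; exact matF_congr s p0
    · rw [h, Units.val_one, ← matF_one (p := p) s] at hxA
      obtain ⟨i, j, hij⟩ := xne
      exact hij (matF_injective hs hxA.symm i j)
  refine ⟨S, x, y, z, t, hx, hy, hz, ht, (hS x).mpr (hxA ▸ pres_of_keeps hs hlt hsub heq xk),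
    (hS y).mpr (hyA ▸ pres_of_keeps hs hlt hsub heq yk), (hS z).mpr (hzA ▸ pres_of_keeps hs hlt hsub heq zk),
    fun h => not_pres_of_keeps hs hlt hsub heq tk (htA ▸ (hS t).mp h), fun w hw hws => ?_, hxo, ?_, fun a ha => ?_,
    fun a ha => ?_, ⟨matF s fun r c => pw (c.castLE (by decide)) r 0, matF s ci, fun r c => ?_, ?_⟩⟩
  · obtain ⟨c, hc⟩ := (Cfsg.Geo.mem_scalars_iff w).mp hws
    have hd := mem_specialLinear.mp hw.2
    rw [hc, Matrix.det_smul, Matrix.det_one, mul_one, Fintype.card_fin] at hd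
    exact (hS w).mpr (by rw [hc]; exact hscal _ hd)
  · rw [mul_inv_eq_iff_eq_mul]
    refine Units.ext ?_
    rw [Units.val_mul, Units.val_mul, hpow 2, hyA, hxA, ← matF_mul hs, ← matF_mul hs]
    exact matF_congr s yconj
  · have h := congrArg Units.val (mul_inv_eq_iff_eq_mul.mp ha)
    rw [Units.val_mul, Units.val_mul, hpow a, hzA, hxA, ← matF_mul hs, ← matF_mul hs] at h
    obtain ⟨i, j, hij⟩ := znot (Fin.ofNat 7 a)
    exact hij (matF_injective hs h i j)
  · rw [hpow a, hxA] at ha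
    simp only [Matrix.trace, Fin.sum_univ_three, Matrix.diag_apply, matF, Matrix.of_apply, ← toF_add] at ha
    rcases htr _ (toF_injective hs ha) with h | h | h <;>
    · have h' := congrArg Fin.val h
      simp only [Fin.ofNat, Fin.val_mk] at h'
      omega
  · rw [← Units.val_pow_eq_pow_val, hpow]
    have hc : Fin.ofNat 7 (c : ℕ) = c.castLE (by decide) := Fin.ext (by
      simp only [Fin.val_ofNat, Fin.val_castLE]; exact Nat.mod_eq_of_lt (by omega))
    rw [hc]; rfl
  · rw [← matF_mul hs, matF_congr s hci, matF_one]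

theorem scalar_cube (w : GL (Fin 3) F) (hw : w ∈ specialUnitary 3 F q) (hs : w ∈ Cfsg.Geo.scalars (Fin 3) F) :
    w ^ 3 = 1 := by
  obtain ⟨c, hc⟩ := (Cfsg.Geo.mem_scalars_iff w).mp hs
  have hd := mem_specialLinear.mp hw.2
  rw [hc, Matrix.det_smul, Matrix.det_one, mul_one, Fintype.card_fin] at hd
  exact Units.ext (by rw [Units.val_pow_eq_pow_val, hc, smul_pow, one_pow, hd, one_smul, Units.val_one])

theorem no_singer_three [CharP F 3] (D : UData 3 F 3 σ) {H : Subgroup (GL (Fin 3) F)}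
    (hH : Cfsg.Geo.IsMaximalIn (specialUnitary 3 F 3) H) {K : Subalgebra F (Matrix (Fin 3) (Fin 3) F)}
    (hK : Cfsg.Geo.IsFieldSubalgebra 3 K) (hadj : Cfsg.Geo.IsAdjointClosedFor (Cfsg.hermForm 3 F 3) K)
    (hle : H ≤ Cfsg.Geo.subalgebraNormalizer K) {x : GL (Fin 3) F} (hx : x ∈ H)
    (hxs : x ∉ Cfsg.Geo.scalars (Fin 3) F) (hxK : (x : Matrix (Fin 3) (Fin 3) F) ∈ K) : False := by
  obtain ⟨s, hs⟩ := exists_root D rfl (by decide) (d := (2 : ZMod 3)) (by decide)
  have hcube : ∀ c : F, c ^ 3 = 1 → c = 1 := fun c hc => by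
    haveI : ExpChar F 3 := ExpChar.prime Nat.prime_three
    exact frobenius_inj F 3 (by simpa [frobenius_def] using hc)
  obtain ⟨S, x0, y0, z0, t, hd⟩ := exists_sevenData (q := 3) D hs DataThree.orb_lt DataThree.orb_sub
    DataThree.msk_eq DataThree.pw_zero DataThree.pw_succ DataThree.x_unit DataThree.y_unit DataThree.z_unit
    DataThree.t_unit DataThree.x_det DataThree.y_det DataThree.z_det DataThree.t_det DataThree.x_ne DataThree.y_conj
    DataThree.z_not DataThree.ci_cyclic DataThree.pw_trace DataThree.x_keeps DataThree.y_keeps DataThree.z_keeps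
    DataThree.t_not_keeps (fun c hc => by rw [hcube c hc, one_smul]; exact Pres.one _)
  refine no_singer_case D ?_ hH hK hle (fun w hw hwK => ?_) (scalar_cube (q := 3)) hx hxs hxK hd
  · rw [Matrix.card_GL_field]
    simp only [Fin.prod_univ_three, D.card]
    norm_num
  · obtain ⟨⟨i, hi, h1, h2⟩, h3⟩ := singer_facts D hK hadj hw hwK
    have h28 : w ^ 28 = 1 := by
      refine orderOf_dvd_iff_pow_eq_one.mp ((Nat.dvd_gcd (orderOf_dvd_of_pow_eq_one h1)
        (orderOf_dvd_of_pow_eq_one h2)).trans ?_)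
      interval_cases i <;> norm_num
    refine h3 7 ?_
    rw [show 7 * 3 ^ 2 = 28 * 2 + 7 by norm_num, pow_add, pow_mul, h28, one_pow, one_mul]

theorem no_singer_five [CharP F 5] (D : UData 3 F 5 σ) {H : Subgroup (GL (Fin 3) F)}
    (hH : Cfsg.Geo.IsMaximalIn (specialUnitary 3 F 5) H) {K : Subalgebra F (Matrix (Fin 3) (Fin 3) F)}
    (hK : Cfsg.Geo.IsFieldSubalgebra 3 K) (hadj : Cfsg.Geo.IsAdjointClosedFor (Cfsg.hermForm 3 F 5) K)
    (hle : H ≤ Cfsg.Geo.subalgebraNormalizer K) {x : GL (Fin 3) F} (hx : x ∈ H)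
    (hxs : x ∉ Cfsg.Geo.scalars (Fin 3) F) (hxK : (x : Matrix (Fin 3) (Fin 3) F) ∈ K) : False := by
  obtain ⟨s, hs⟩ := exists_root D rfl (by decide) (d := (2 : ZMod 5)) (by decide)
  have hw3 : mulC (2 : ZMod 5) DataFive.w3 DataFive.w3 + DataFive.w3 + (1, 0) = 0 := by decide
  have hscal : matF s DataFive.sc = toF s DataFive.w3 • (1 : Matrix (Fin 3) (Fin 3) F) := by
    have h0 : ∀ i j, DataFive.sc i j = if i = j then DataFive.w3 else 0 := by decide
    ext i j
    rcases eq_or_ne i j with rfl | hne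
    · simp [matF, h0]
    · simp [matF, h0, hne, toF_zero]
  obtain ⟨S, x0, y0, z0, t, hd⟩ := exists_sevenData (q := 5) D hs DataFive.orbA_lt DataFive.orbA_sub
    DataFive.mskA_eq DataFive.pw_zero DataFive.pw_succ DataFive.x_unit DataFive.y_unit DataFive.z_unit
    DataFive.t0_ok.1 DataFive.x_det DataFive.y_det DataFive.z_det DataFive.t0_ok.2.1 DataFive.x_ne DataFive.y_conj
    DataFive.z_not DataFive.ci_cyclic DataFive.pw_trace DataFive.x_keeps DataFive.y_keeps DataFive.z_keeps
    DataFive.t0_ok.2.2.1 (fun c hc => by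
      have hsc := pres_of_keeps hs DataFive.orbA_lt DataFive.orbA_sub DataFive.mskA_eq DataFive.sc_ok.2.2
      rw [hscal] at hsc
      rcases eq_of_cube_eq_one hs hw3 hc with rfl | rfl | rfl
      · rw [one_smul]; exact Pres.one _
      · exact hsc
      · have := hsc.mul hsc
        rwa [smul_mul_smul_comm, one_mul, ← sq] at this)
  refine no_singer_case D ?_ hH hK hle (fun w hw hwK => ?_) (scalar_cube (q := 5)) hx hxs hxK hd
  · rw [Matrix.card_GL_field]
    simp only [Fin.prod_univ_three, D.card]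
    norm_num
  · obtain ⟨⟨i, hi, h1, h2⟩, h3⟩ := singer_facts D hK hadj hw hwK
    have h126 : w ^ 126 = 1 := by
      refine orderOf_dvd_iff_pow_eq_one.mp ((Nat.dvd_gcd (orderOf_dvd_of_pow_eq_one h1)
        (orderOf_dvd_of_pow_eq_one h2)).trans ?_)
      interval_cases i <;> norm_num
    obtain ⟨c, hc⟩ := (Cfsg.Geo.mem_scalars_iff _).mp (h3 21 (by
      rw [show 21 * 5 ^ 2 = 126 * 4 + 21 by norm_num, pow_add, pow_mul, h126, one_pow, one_mul]))
    set u := ((w ^ 7 : GL (Fin 3) F) : Matrix (Fin 3) (Fin 3) F) with hu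
    have hu3 : u ^ 3 = (c : F) • 1 := by
      rw [hu, ← Units.val_pow_eq_pow_val, ← pow_mul]; exact hc
    have hud : u.det = 1 := mem_specialLinear.mp ((specialUnitary 3 F 5).pow_mem hw 7).2
    have hc3 : (c : F) ^ 3 = 1 := by
      have := congrArg Matrix.det hu3
      rwa [Matrix.det_pow, hud, one_pow, Matrix.det_smul, Matrix.det_one, mul_one, Fintype.card_fin, eq_comm] at this
    have hc1 : (c : F) = 1 := by
      by_contra hne
      have hnc : ∀ a : F, a ^ 3 ≠ (c : F) := by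
        intro a ha
        have ha0 : a ≠ 0 := fun h => c.ne_zero (by rw [← ha, h, zero_pow (by norm_num)])
        have h24 := FiniteField.pow_card_sub_one_eq_one a ha0
        rw [D.card, show 5 ^ 2 - 1 = 3 * 8 by norm_num, pow_mul, ha] at h24
        exact hne (by linear_combination hc3 - (c : F) * (h24 - ((c : F) ^ 5 + (c : F) ^ 2) * hc3))
      rw [det_of_cube hu3 hnc] at hud
      exact hne hud
    have hroot : (u - (1 : F) • 1) * ((u - toF s DataFive.w3 • 1) * (u - toF s DataFive.w3 ^ 2 • 1)) = 0 := by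
      have h := congrArg (toF s) hw3
      rw [toF_add, toF_add, toF_mul hs, toF_one, toF_zero] at h
      set e := toF s DataFive.w3
      have e3 : e * e ^ 2 = 1 := by linear_combination (e - 1) * h
      have e12 : e + e ^ 2 = -1 := by linear_combination h
      have : (u - (e : F) • 1) * (u - e ^ 2 • 1) = u * u - (e + e ^ 2) • u + (e * e ^ 2) • 1 := by
        rw [sub_mul, mul_sub, smul_mul_assoc, one_mul, mul_smul_comm, mul_one, smul_sub, smul_smul, add_smul]
        abel
      rw [this, e3, e12, one_smul, neg_smul, one_smul, sub_neg_eq_add, sub_mul, mul_add, mul_add, one_mul, mul_one,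
        ← mul_assoc, ← sq, ← pow_succ, hu3, hc1, one_smul]
      abel
    have huK : u ∈ K := by rw [hu, Units.val_pow_eq_pow_val]; exact K.pow_mem hwK 7
    have hscalar : ∀ a : F, u - a • 1 = 0 → w ^ 7 ∈ Cfsg.Geo.scalars (Fin 3) F := by
      intro a ha
      have hu' : u = a • 1 := sub_eq_zero.mp ha
      have ha0 : a ≠ 0 := fun h0 => (w ^ 7).ne_zero (by rw [← hu, hu', h0, zero_smul])
      exact (Cfsg.Geo.mem_scalars_iff _).mpr ⟨Units.mk0 a ha0, hu'⟩
    have hcancel : ∀ {A B : Matrix (Fin 3) (Fin 3) F}, A ∈ K → A * B = 0 → A = 0 ∨ B = 0 := by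
      intro A B hA hAB
      refine or_iff_not_imp_left.mpr fun h0 => ?_
      obtain ⟨A', hA', hA''⟩ := hK.inv A hA h0
      calc B = A' * A * B := by rw [hK.comm _ hA' _ hA, hA'', one_mul]
        _ = 0 := by rw [mul_assoc, hAB, mul_zero]
    have hmem : ∀ a : F, u - a • 1 ∈ K := fun a => K.sub_mem huK (K.smul_mem K.one_mem a)
    rcases hcancel (hmem 1) hroot with h | h
    · exact hscalar _ h
    · rcases hcancel (hmem _) h with h' | h'
      · exact hscalar _ h'
      · exact hscalar _ h'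

end CfsgLib.GeoPrime.Three
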