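import Mathlib
import Cfsg.Agent.GeoPrime.Three.Frame
import Cfsg.Agent.GeoPrime.Three.Lines
import Cfsg.Agent.GeoPrime.Three.Pres
import Cfsg.Agent.GeoPrime.Three.DataOrth

/-!
Rational structures of index two over fields with nine and twenty five elements.
-/

set_option autoImplicit false

namespace CfsgLib.GeoPrime.Three

open Matrix

local instance factThree : Fact (Nat.Prime 3) := ⟨Nat.prime_three⟩

local instance factFive : Fact (Nat.Prime 5) := ⟨by norm_num⟩

variable {F : Type*} [Field F] [Fintype F] {σ : F ≃+* F}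

theorem gram_diag {R : Type*} [CommRing R] {M : Matrix (Fin 3) (Fin 3) R} {a : Fin 3 → R} {l : R}
    (h : ∀ i j, a 0 * M 0 i * M 0 j + a 1 * M 1 i * M 1 j + a 2 * M 2 i * M 2 j = if i = j then l else 0) :
    Mᵀ * Matrix.diagonal a * M = l • 1 := by
  ext i j
  rw [Matrix.smul_apply, Matrix.one_apply, smul_eq_mul, mul_ite, mul_one, mul_zero, ← h i j]
  rw [Matrix.mul_apply]
  simp only [Matrix.mul_diagonal, Matrix.transpose_apply, Fin.sum_univ_three]
  ring

theorem norm_col {R : Type*} [CommRing R] {O : Matrix (Fin 3) (Fin 3) R} (h : Oᵀ * O = 1) (i j : Fin 3) :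
    O 0 i * O 0 j + O 1 i * O 1 j + O 2 i * O 2 j = if i = j then 1 else 0 := by
  rw [← Matrix.one_apply, ← h]
  simp [Matrix.mul_apply, Fin.sum_univ_three]

theorem subfield_three [CharP F 3] (D : UData 3 F 3 σ) {H : Subgroup (GL (Fin 3) F)}
    (hH : Cfsg.Geo.IsMaximalIn (specialUnitary 3 F 3) H) {F₀ : Subfield F} {P : GL (Fin 3) F}
    (hc : Fintype.card F = Nat.card F₀ ^ 2)
    (hform : Cfsg.Geo.IsFormRationalStructure (Cfsg.hermForm 3 F 3) F₀ 1 P)
    (hle : H ≤ Cfsg.Geo.subfieldSubgroup F₀ P) :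
    ∃ L : Fin 3 → Submodule F (Fin 3 → F), Cfsg.Geo.IsNondegenerateMDecomposition (Cfsg.hermForm 3 F 3) 1 L ∧
      H = Cfsg.Geo.decompositionStabilizer L ⊓ specialUnitary 3 F 3 := by
  obtain ⟨g, hg, hO⟩ := exists_orth_frame D rfl (by decide) (fun d hd => by
      obtain ⟨hl, hgr⟩ := DataOrth.frameThree_ok _ _ _ (hd 0) (hd 1) (hd 2)
      exact ⟨_, _, hl, gram_diag hgr⟩) hH.1.le hc hform hle
  obtain ⟨b, h1, h2, h3⟩ := exists_lines_of_monomial D hg (fun h hh i => by
    obtain ⟨c, O, hO1, -, -, hm⟩ := hO h hh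
    have hn := norm_col hO1 i i
    rw [if_pos rfl] at hn
    rcases DataOrth.norm_one_three _ _ _ hn with ⟨e1, e2⟩ | ⟨e1, e2⟩ | ⟨e1, e2⟩
    · refine ⟨0, fun k hk => ?_⟩
      rw [hm]; fin_cases k <;> simp_all
    · refine ⟨1, fun k hk => ?_⟩
      rw [hm]; fin_cases k <;> simp_all
    · refine ⟨2, fun k hk => ?_⟩
      rw [hm]; fin_cases k <;> simp_all)
  exact lines_case D le_rfl hH b h1 h2 h3

theorem orth_five {O : Matrix (Fin 3) (Fin 3) (ZMod 5)} (hO : Oᵀ * O = 1) (hdet : O.det = 1) :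
    ∃ (k : Fin 30) (l : Fin 4), O = DataOrth.rep k * DataOrth.stab l := by
  obtain ⟨k, hk0, hk1, hk2⟩ := DataOrth.rep_col _ _ _ (by simpa using norm_col hO 0 0)
  set R := DataOrth.rep k
  have hR : Rᵀ * R = 1 := by
    have := gram_diag (M := R) (a := fun _ => (1 : ZMod 5)) (l := 1) (by
      intro i j; simp only [one_mul]; exact DataOrth.rep_orth k i j)
    simpa using this
  have hRd : R.det = 1 := by rw [Matrix.det_fin_three]; exact DataOrth.rep_det k
  have hR' : R * Rᵀ = 1 := mul_eq_one_comm.mp hR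
  set S := Rᵀ * O with hS
  have hS1 : Sᵀ * S = 1 := by
    rw [hS, Matrix.transpose_mul, Matrix.transpose_transpose, mul_assoc, ← mul_assoc R, hR', one_mul, hO]
  have hSd : S.det = 1 := by rw [hS, Matrix.det_mul, Matrix.det_transpose, hRd, hdet, one_mul]
  have hcol : ∀ i, S i 0 = (Rᵀ * R) i 0 := fun i => by
    simp [hS, Matrix.mul_apply, Fin.sum_univ_three, hk0, hk1, hk2]
  have s0 : S 0 0 = 1 := by rw [hcol, hR]; rfl
  have s1 : S 1 0 = 0 := by rw [hcol, hR]; rfl
  have s2 : S 2 0 = 0 := by rw [hcol, hR]; rfl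
  have e01 := norm_col hS1 0 1
  have e02 := norm_col hS1 0 2
  rw [s0, s1, s2, if_neg (by decide)] at e01 e02
  simp only [one_mul, zero_mul, add_zero] at e01 e02
  have e11 := norm_col hS1 1 1
  have e22 := norm_col hS1 2 2
  have e12 := norm_col hS1 1 2
  rw [e01] at e11 e12
  rw [e02] at e22 e12
  simp only [zero_mul, mul_zero, zero_add, if_pos, if_neg (by decide : ¬ (1 : Fin 3) = 2)] at e11 e22 e12
  rw [Matrix.det_fin_three, s0, s1, s2, e01, e02] at hSd
  obtain ⟨l, l1, l2, l3, l4⟩ := DataOrth.stab_block (S 1 1) (S 2 1) (S 1 2) (S 2 2) e11 e22 e12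
    (by linear_combination hSd)
  obtain ⟨f0, f1, f2, f3, f4⟩ := DataOrth.stab_first l
  refine ⟨k, l, ?_⟩
  have : S = DataOrth.stab l := by
    ext i j
    fin_cases i <;> fin_cases j <;> simp_all
  rw [← this, hS, ← mul_assoc, hR', one_mul]

theorem no_subfield_five [CharP F 5] (D : UData 3 F 5 σ) {H : Subgroup (GL (Fin 3) F)}
    (hH : Cfsg.Geo.IsMaximalIn (specialUnitary 3 F 5) H) {F₀ : Subfield F} {P : GL (Fin 3) F}
    (hc : Fintype.card F = Nat.card F₀ ^ 2)
    (hform : Cfsg.Geo.IsFormRationalStructure (Cfsg.hermForm 3 F 5) F₀ 1 P)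
    (hle : H ≤ Cfsg.Geo.subfieldSubgroup F₀ P) : False := by
  obtain ⟨g, hg, hO⟩ := exists_orth_frame D rfl (by decide) (fun d hd => by
      obtain ⟨hl, hgr⟩ := DataOrth.frameFive_ok _ _ _ (hd 0) (hd 1) (hd 2)
      exact ⟨_, _, hl, gram_diag hgr⟩) hH.1.le hc hform hle
  obtain ⟨s, hs⟩ := exists_root D rfl (by decide) (d := (2 : ZMod 5)) (by decide)
  set X := vecSet s 5 DataFive.orbA
  obtain ⟨S, hS⟩ := exists_stabilizer X
  have hk : ∀ {A : M3 5}, keeps 2 DataFive.orbA DataFive.mskA A = true → Pres X (matF s A) := fun h =>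
    pres_of_keeps hs DataFive.orbA_lt DataFive.orbA_sub DataFive.mskA_eq h
  have hcast : ∀ N : Matrix (Fin 3) (Fin 3) (ZMod 5),
      N.map (ZMod.castHom (dvd_refl 5) F) = matF s (fun i j => (N i j, (0 : ZMod 5))) := fun N => by
    ext i j; simp [matF, toF]
  have hscal : matF s DataFive.sc = toF s DataFive.w3 • (1 : Matrix (Fin 3) (Fin 3) F) := by
    have h0 : ∀ i j, DataFive.sc i j = if i = j then DataFive.w3 else 0 := by decide
    ext i j
    rcases eq_or_ne i j with rfl | hne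
    · simp [matF, h0]
    · simp [matF, h0, hne, toF_zero]
  have hscalar : ∀ c : F, c ^ 3 = 1 → Pres X (c • (1 : Matrix (Fin 3) (Fin 3) F)) := by
    intro c hc3
    have hsc := hk DataFive.sc_ok.2.2
    rw [hscal] at hsc
    rcases eq_of_cube_eq_one hs (w := DataFive.w3) (by decide) hc3 with rfl | rfl | rfl
    · rw [one_smul]; exact Pres.one X
    · exact hsc
    · have := hsc.mul hsc
      rwa [smul_mul_smul_comm, one_mul, ← sq] at this
  obtain ⟨z, hz, hzA⟩ := exists_su hs D DataFive.d1_ok.1 DataFive.d1_ok.2.1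
  obtain ⟨t, ht, htA⟩ := exists_su hs D DataFive.t0_ok.1 DataFive.t0_ok.2.1
  refine no_overgroup hH (S := S) (g := g) (conj_mem_su hg) (fun h hh => (hS _).mpr ?_) hz
    ((hS z).mpr (hzA ▸ hk DataFive.d1_ok.2.2)) (fun hzH => ?_) ht (fun htS => ?_)
  · obtain ⟨c, O, hO1, hO2, hc3, hm⟩ := hO h hh
    obtain ⟨k, l, rfl⟩ := orth_five hO1 hO2
    have := (hscalar c hc3).mul ((hk (DataOrth.rep_keeps k)).mul (hk (DataOrth.stab_keeps l)))
    rw [smul_mul_assoc, one_mul, ← hcast, ← hcast, ← Matrix.map_mul, ← hm] at this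
    exact this
  · obtain ⟨c, O, -, -, hc3, hm⟩ := hO _ hzH
    rw [show g * (g⁻¹ * z * g) * g⁻¹ = z by group, hzA] at hm
    have h00 := congrFun (congrFun hm 0) 0
    have h11 := congrFun (congrFun hm 1) 1
    simp only [Matrix.smul_apply, Matrix.map_apply, smul_eq_mul, matF, Matrix.of_apply] at h00 h11
    rw [show DataFive.d1 0 0 = DataFive.e6 from by decide] at h00
    rw [show DataFive.d1 1 1 = (1, 0) from by decide, toF_one] at h11
    have key : toF s (mulC 2 DataFive.e6 (O 1 1, 0)) = toF s (O 0 0, (0 : ZMod 5)) := by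
      rw [toF_mul hs]
      have e : ∀ a : ZMod 5, toF s (a, (0 : ZMod 5)) = ZMod.castHom (dvd_refl 5) F a := fun a => by simp [toF]
      rw [e, e, h00, mul_assoc, mul_comm (ZMod.castHom (dvd_refl 5) F (O 0 0)), ← mul_assoc, ← h11, one_mul]
    have h2 : ∀ a b : ZMod 5, a ≠ 0 → mulC 2 DataFive.e6 (a, 0) ≠ (b, 0) := by decide
    refine h2 _ _ (fun h0 => ?_) (toF_injective hs key)
    rw [h0, map_zero, mul_zero] at h11
    exact one_ne_zero h11
  · exact not_pres_of_keeps hs DataFive.orbA_lt DataFive.orbA_sub DataFive.mskA_eq DataFive.t0_ok.2.2.1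
      (htA ▸ (hS t).mp htS)

end CfsgLib.GeoPrime.Three
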